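import Cfsg.Agent.UTh.Main

/-!
# The Thompson subgroup
-/

set_option autoImplicit false
set_option linter.unusedSectionVars false
set_option linter.unusedSimpArgs false

namespace Cfsg.Agent.UTh

open Finset Matrix Module Cfsg.Agent.Uni Cfsg.Agent.Fi22 Cfsg.Agent.UDbl

variable {F : Type*} [Field F] [Fintype F]
variable {H : Type*} [Group H] [Finite H] {z : H} {φ : H →* PSU 6 F 2}

theorem thompson_eq (hF : Fintype.card F = 2 ^ 2) (D : Dbl φ z) (S : Sylow 2 H) :
    ∃ w v : Fin 3 → Fin 6 → F, HB w v ∧ Cfsg.thompsonSubgroupOf 2 (S : Subgroup H) = AW φ w := by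
  have : Fact (Nat.Prime 2) := ⟨Nat.prime_two⟩
  obtain ⟨w, v, h, hle⟩ := exists_SW hF D S.isPGroup'
  refine ⟨w, v, h, ?_⟩
  have hS : SW φ w = S := S.is_maximal' (IsPGroup.of_card (card_SW hF h D)) hle
  have hel : Cfsg.IsElementaryAbelian 2 (AW φ w) := by
    obtain ⟨h1, h2⟩ := AW_abel hF h D
    refine ⟨⟨⟨fun a b => Subtype.ext (h1 a a.2 b b.2)⟩⟩, fun a ha => by rw [sq]; exact h2 a ha⟩
  have key : ∀ B : Subgroup H, B ≤ S → Cfsg.IsElementaryAbelian 2 B → 2 ^ 10 ≤ Nat.card B → B = AW φ w := by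
    intro B hB hBe hc
    refine eq_AW hF h D (by rw [hS]; exact hB) (fun b hb => ?_) hc
    have := hBe.2 b hb
    rwa [sq] at this
  rw [ZJ.thompsonSubgroupOf_eq]
  have h3 : ZJ.maxIn (fun A : Subgroup H => Cfsg.IsElementaryAbelian 2 A) (S : Subgroup H) = {AW φ w} := by
    ext B
    rw [Set.mem_singleton_iff]
    constructor
    · rintro ⟨hBS, hBe, hmax⟩
      refine key B hBS hBe ?_
      have := hmax (AW φ w) (by rw [← hS]; exact AW_le_SW w) hel
      rwa [card_AW hF h D] at this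
    · rintro rfl
      refine ⟨by rw [← hS]; exact AW_le_SW w, hel, fun B hB hBe => ?_⟩
      rw [card_AW hF h D]
      by_contra hcon
      have h4 := key B hB hBe (by omega)
      rw [h4, card_AW hF h D] at hcon
      exact hcon le_rfl
  rw [h3, sSup_singleton]

end Cfsg.Agent.UTh
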