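import Cfsg.Agent.UTh.Count

/-!
# Conjugacy of the large elementary abelian subgroups; counting an invariant set
-/

set_option autoImplicit false
set_option linter.unusedSectionVars false
set_option linter.unusedSimpArgs false

namespace Cfsg.Agent.UTh

open Finset Matrix Module Cfsg.Agent.Uni Cfsg.Agent.Fi22 Cfsg.Agent.UDbl

variable {F : Type*} [Field F] [Fintype F]

theorem exists_SU_TI (hF : Fintype.card F = 2 ^ 2) {w v w' v' : Fin 3 → Fin 6 → F} (h : HB w v) (h' : HB w' v') :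
    ∃ s : SU 6 F 2, ∀ i, ∃ c : F, c ≠ 0 ∧ act s (w i) = c • w' i := by
  obtain ⟨k, hk⟩ := exists_GU_of_family hF h.li h'.li (fun i j => by rw [h.uu, h'.uu])
  have hk' : ∀ i, gact k (w i) = w' i := hk
  have hyp : Hyp 2 (w' 2) (v' 2) := ⟨h'.uu 2 2, h'.vv 2 2, by rw [h'.uv, if_pos rfl]⟩
  set δ : F := ((detHom hF 6 k : Fˣ) : F) with hδ
  have hδ0 : δ ≠ 0 := Units.ne_zero _
  obtain ⟨r, hr, hrd⟩ := exists_gtorus hF hyp hδ0
  obtain ⟨s, hs⟩ := UTP.exists_SU_of_GU hF (r * k) (by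
    rw [map_mul]
    change ((detHom hF 6 r : Fˣ) : F) * ((detHom hF 6 k : Fˣ) : F) = 1
    rw [hrd, ← hδ]
    have h3 := pow_three_eq_one hF hδ0
    field_simp)
  refine ⟨s, fun i => ?_⟩
  rw [hs, gact_mul, hk', hr, h'.uu, mul_zero, zero_smul, add_zero, h'.uv]
  by_cases hi : i = 2
  · subst hi
    refine ⟨δ, hδ0, ?_⟩
    rw [if_pos rfl, mul_one]
    module
  · refine ⟨1, one_ne_zero, ?_⟩
    rw [if_neg hi, mul_zero, zero_smul, add_zero, one_smul]

section

variable {H : Type*} [Group H] [Finite H] {z : H} {φ : H →* PSU 6 F 2}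
variable (hF : Fintype.card F = 2 ^ 2) (D : Dbl φ z) {w v : Fin 3 → Fin 6 → F} (h : HB w v)

include hF D in
/-- the large elementary abelian subgroups are conjugate -/
theorem AW_conj {w' v' : Fin 3 → Fin 6 → F} (h : HB w v) (h' : HB w' v') :
    ∃ x : H, ∀ y ∈ AW φ w, x * y * x⁻¹ ∈ AW φ w' := by
  obtain ⟨s, hs⟩ := exists_SU_TI hF h h'
  obtain ⟨x, hx⟩ := D.surj (pr s)
  refine ⟨x, fun y hy => ?_⟩
  have h1 := conj_AW D hx hy
  have h2 : QW (fun i => act s (w i)) = QW w' := by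
    refine QW_eq hF (HB_map h s) h' fun i j => ?_
    obtain ⟨c, -, hc⟩ := hs j
    rw [hc, hermForm_smul_right, h'.uu, mul_zero]
  rw [AW, h2] at h1
  exact h1

include hF D in
/-- every element inducing an involution lies in one of them -/
theorem exists_AW_of_sq {y : H} (hy : φ y * φ y = 1) : ∃ w v : Fin 3 → Fin 6 → F, HB w v ∧ y ∈ AW φ w := by
  obtain ⟨g, hg, hgg⟩ := Fi22.exists_lift hF hy
  obtain ⟨k, u, hu, hgu⟩ := exists_isTvs hF hgg
  have hk := Fi22.IsTI.two_mul_le hF hu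
  obtain ⟨w, v, hwv, hwu⟩ := exists_HB_of_TI hF (k := k) (by omega) hu
  refine ⟨w, v, hwv, g, fun i => ?_, hg⟩
  rw [hgu (w i)]
  have : ∑ j, hermForm 6 F 2 (w i) (u j) • u j = 0 := by
    refine Finset.sum_eq_zero fun j _ => ?_
    rw [← hwu j, hwv.uu, zero_smul]
  rw [this, add_zero]

/-! ### Counting -/

/-- the number of lifts with the property `P` -/
noncomputable def Nn (φ : H →* PSU 6 F 2) (P : H → Prop) (q : SU 6 F 2) : ℕ := Set.ncard {x : H | φ x = pr q ∧ P x}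

theorem Nn_conj {P : H → Prop} (hP : ∀ x y, P x → P (y * x * y⁻¹)) {s : H} {g q : SU 6 F 2} (hs : φ s = pr g) :
    Nn φ P (g * q * g⁻¹) = Nn φ P q := by
  have h1 : {x : H | φ x = pr (g * q * g⁻¹) ∧ P x} = (fun x => s * x * s⁻¹) '' {x : H | φ x = pr q ∧ P x} := by
    ext x
    constructor
    · rintro ⟨hx, hPx⟩
      refine ⟨s⁻¹ * x * s, ⟨?_, ?_⟩, ?_⟩
      · rw [map_mul, map_mul, map_inv, hx, hs]
        show (pr g)⁻¹ * (pr g * pr q * (pr g)⁻¹) * pr g = pr q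
        group
      · have := hP x s⁻¹ hPx
        rwa [inv_inv] at this
      · show s * (s⁻¹ * x * s) * s⁻¹ = x
        group
    · rintro ⟨y, ⟨hy, hPy⟩, rfl⟩
      refine ⟨?_, hP _ _ hPy⟩
      show φ (s * y * s⁻¹) = _
      rw [map_mul, map_mul, map_inv, hs, hy]
      rfl
  rw [Nn, h1, Set.ncard_image_of_injective]
  · rfl
  · intro a b hab
    exact mul_left_cancel (mul_right_cancel hab)

include D in
open Classical in
theorem Nn_eq {P : H → Prop} {q : SU 6 F 2} {x : H} (hx : φ x = pr q) :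
    Nn φ P q = (if P x then 1 else 0) + (if P (x * z) then 1 else 0) := by
  have hne : x ≠ x * z := by
    intro h1
    exact D.ne (left_eq_mul.1 h1)
  have h1 : {y : H | φ y = pr q ∧ P y} = {y | (y = x ∧ P x) ∨ (y = x * z ∧ P (x * z))} := by
    ext y
    constructor
    · rintro ⟨hy, hPy⟩
      obtain ⟨c, hc, hyc⟩ := D.exists_c (hy.trans hx.symm)
      rcases D.ker c hc with rfl | rfl
      · left; rw [mul_one] at hyc; exact ⟨hyc, hyc ▸ hPy⟩
      · right; exact ⟨hyc, hyc ▸ hPy⟩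
    · rintro (⟨rfl, hPy⟩ | ⟨rfl, hPy⟩)
      · exact ⟨hx, hPy⟩
      · exact ⟨by rw [map_mul, D.phz, mul_one, hx], hPy⟩
  rw [Nn, h1]
  by_cases p1 : P x <;> by_cases p2 : P (x * z)
  · have : {y | (y = x ∧ P x) ∨ (y = x * z ∧ P (x * z))} = {x, x * z} := by
      ext y; simp [p1, p2]
    rw [this, Set.ncard_pair hne, if_pos p1, if_pos p2]
  · have : {y | (y = x ∧ P x) ∨ (y = x * z ∧ P (x * z))} = {x} := by
      ext y; simp [p1, p2]
    rw [this, Set.ncard_singleton, if_pos p1, if_neg p2]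
  · have : {y | (y = x ∧ P x) ∨ (y = x * z ∧ P (x * z))} = {x * z} := by
      ext y; simp [p1, p2]
    rw [this, Set.ncard_singleton, if_neg p1, if_pos p2]
  · have : {y | (y = x ∧ P x) ∨ (y = x * z ∧ P (x * z))} = ∅ := by
      ext y; simp [p1, p2]
    rw [this, Set.ncard_empty, if_neg p1, if_neg p2]

include D in
theorem Nn_le {P : H → Prop} (q : SU 6 F 2) : Nn φ P q ≤ 2 := by
  obtain ⟨x, hx⟩ := D.surj (pr q)
  rw [Nn_eq D hx]
  split_ifs <;> omega

include hF h in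
theorem ncard_eq_sum (P : H → Prop) : Set.ncard {x : H | x ∈ AW φ w ∧ P x} = ∑ q ∈ QF w, Nn φ P q := by
  classical
  haveI := Fintype.ofFinite H
  have h1 : {x : H | x ∈ AW φ w ∧ P x} =
      (((QF w).biUnion fun q => univ.filter fun x : H => φ x = pr q ∧ P x : Finset H) : Set H) := by
    ext x
    simp only [Set.mem_setOf_eq, Finset.coe_biUnion, Finset.coe_filter, Finset.mem_univ, true_and, Set.mem_iUnion,
      Finset.mem_coe, mem_QF, exists_prop]
    constructor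
    · rintro ⟨⟨q, hq, hx⟩, hPx⟩
      exact ⟨q, hq, hx.symm, hPx⟩
    · rintro ⟨q, hq, hx, hPx⟩
      exact ⟨⟨q, hq, hx.symm⟩, hPx⟩
  rw [h1, Set.ncard_coe_finset, Finset.card_biUnion]
  · refine Finset.sum_congr rfl fun q _ => ?_
    rw [Nn, ← Set.ncard_coe_finset]
    congr 1
    ext x; simp
  · intro q hq q' hq' hne
    rw [Function.onFun, Finset.disjoint_left]
    intro x hx hx'
    rw [Finset.mem_filter] at hx hx'
    exact hne (pr_inj hF h (QW_le_TT w (mem_QF.1 hq)) (QW_le_TT w (mem_QF.1 hq')) (hx.2.1.symm.trans hx'.2.1))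

include hF h D in
/-- **the counting formula** -/
theorem count_formula {P : H → Prop} (hP : ∀ x y, P x → P (y * x * y⁻¹)) :
    ∃ f : ℕ → ℕ, (∀ k, f k ≤ 2) ∧ (∀ q ∈ QW w, Nn φ P q = f (rnk q)) ∧
      Set.ncard {x : H | x ∈ AW φ w ∧ P x} = f 0 + 21 * f 1 + 210 * f 2 + 280 * f 3 := by
  classical
  obtain ⟨f, hf⟩ : ∃ f : ℕ → ℕ, f = fun k => if hk : ∃ q ∈ QW w, RR k q then Nn φ P hk.choose else 0 := ⟨_, rfl⟩
  have h1 : ∀ q ∈ QW w, Nn φ P q = f (rnk q) := by
    intro q hq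
    have h2 := (rnk_spec hF h hq).1
    have h3 : ∃ q' ∈ QW w, RR (rnk q) q' := ⟨q, hq, h2⟩
    rw [hf]
    simp only [dif_pos h3]
    obtain ⟨s, -, hs⟩ := trans_RR hF h h3.choose_spec.1 hq h3.choose_spec.2 h2
    obtain ⟨y, hy⟩ := D.surj (pr s)
    nth_rewrite 1 [← hs]
    exact Nn_conj hP hy
  refine ⟨f, fun k => ?_, h1, ?_⟩
  · rw [hf]
    show (if hk : ∃ q ∈ QW w, RR k q then Nn φ P hk.choose else 0) ≤ 2
    split_ifs
    · exact Nn_le D _
    · omega
  · rw [ncard_eq_sum hF h, ← sum_rank hF h f]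
    exact Finset.sum_congr rfl fun q hq => h1 q (mem_QF.1 hq)

end

end Cfsg.Agent.UTh
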