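import Cfsg.Agent.UTh.Types

/-!
# The number of elements of each rank
-/

set_option autoImplicit false
set_option linter.unusedSectionVars false
set_option linter.unusedSimpArgs false

namespace Cfsg.Agent.UTh

open Finset Matrix Module Cfsg.Agent.Uni Cfsg.Agent.Fi22 Cfsg.Agent.UDbl

variable {F : Type*} [Field F] [Fintype F]

open Classical in
/-- the rank -/
noncomputable def rnk (g : SU 6 F 2) : ℕ := if h : ∃ k, RR k g then h.choose else 4

/-- the elements of `QW` -/
noncomputable def QF (w : Fin 3 → Fin 6 → F) : Finset (SU 6 F 2) := (Set.toFinite (QW w : Set (SU 6 F 2))).toFinset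

theorem mem_QF {w : Fin 3 → Fin 6 → F} {g : SU 6 F 2} : g ∈ QF w ↔ g ∈ QW w := by
  rw [QF, Set.Finite.mem_toFinset, SetLike.mem_coe]

section
variable (hF : Fintype.card F = 2 ^ 2) {w v : Fin 3 → Fin 6 → F} (h : HB w v)

include hF h in
theorem card_QF : (QF w).card = 512 := by
  have h1 : (QF w).card = (QW w : Set (SU 6 F 2)).ncard := (Set.ncard_eq_toFinset_card _ _).symm
  rw [h1]
  have h2 := card_QW hF h
  have h3 : (QW w : Set (SU 6 F 2)).ncard = Nat.card (QW w) := rfl
  rw [h3, h2]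
  norm_num

include hF in
theorem rnk_eq {g : SU 6 F 2} {k : ℕ} (hk : RR k g) : rnk g = k := by
  have h1 : ∃ k, RR k g := ⟨k, hk⟩
  rw [rnk, dif_pos h1]
  exact RR_unique hF h1.choose_spec hk

include hF h in
theorem rnk_spec {g : SU 6 F 2} (hg : g ∈ QW w) : RR (rnk g) g ∧ rnk g ≤ 3 := by
  obtain ⟨k, hk3, hk⟩ := exists_RR hF h hg
  rw [rnk_eq hF hk]
  exact ⟨hk, hk3⟩

include hF h in
theorem mem_span_w {x : Fin 6 → F} : x ∈ Submodule.span F (Set.range w) ↔ ∀ i, hermForm 6 F 2 x (w i) = 0 := by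
  constructor
  · intro hx i
    have h5 := (show IsTI 2 w from ⟨h.li, h.uu⟩).form_span hF
    exact h5 x hx (w i) (Submodule.subset_span ⟨i, rfl⟩)
  · intro hx
    rw [HB_expand_w hF h hx]
    refine Submodule.add_mem _ (Submodule.add_mem _ ?_ ?_) ?_ <;>
      exact Submodule.smul_mem _ _ (Submodule.subset_span ⟨_, rfl⟩)

include hF h in
open Classical in
theorem card_one : ((QF w).filter fun g => rnk g = 1).card = 21 := by
  let X : Finset (Fin 6 → F) := univ.filter fun x => x ≠ 0 ∧ ∀ i, hermForm 6 F 2 x (w i) = 0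
  have hX : X.card = 63 := by
    have h1 := card_ne_zero_sub hF (Submodule.span F (Set.range w))
    rw [finrank_span_eq_card h.li, Fintype.card_fin, Nat.card_eq_fintype_card, Fintype.card_subtype] at h1
    have h2 : (univ.filter fun x : Fin 6 → F => x ≠ 0 ∧ x ∈ Submodule.span F (Set.range w)) = X := by
      ext x
      simp only [X, Finset.mem_filter, mem_span_w hF h]
    rw [h2] at h1
    rw [h1]
    norm_num
  have himg : ((QF w).filter fun g => rnk g = 1) = X.image tv := by
    ext g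
    rw [Finset.mem_filter, mem_QF, Finset.mem_image]
    constructor
    · rintro ⟨hg, hr⟩
      have h1 := (rnk_spec hF h hg).1
      rw [hr] at h1
      obtain ⟨u, hu, hgu⟩ := h1
      have h2 := RR_inP hF h hg hu hgu
      refine ⟨u 0, ?_, ?_⟩
      · rw [Finset.mem_filter]
        exact ⟨mem_univ _, hu.1.ne_zero 0, h2.2 0⟩
      · apply act_ext
        intro x
        rw [tv_act hF (hu.2 0 0), hgu x]
        simp
    · rintro ⟨x, hx, rfl⟩
      rw [Finset.mem_filter] at hx
      obtain ⟨-, hx0, hxw⟩ := hx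
      have hxx := mem_plane hF h hxw hxw
      refine ⟨fun i => ?_, rnk_eq hF ⟨fun _ => x, ⟨LinearIndependent.of_subsingleton 0 hx0, fun _ _ => hxx⟩, fun y => ?_⟩⟩
      · rw [tv_act hF hxx, (hermForm_eq_zero_comm hF).1 (hxw i), zero_smul, add_zero]
      · rw [tv_act hF hxx]
        simp
  rw [himg]
  have h3 : ∀ b ∈ X.image tv, (X.filter fun x => tv x = b).card = 3 := by
    intro b hb
    obtain ⟨u, hu, rfl⟩ := Finset.mem_image.1 hb
    rw [Finset.mem_filter] at hu
    obtain ⟨-, hu0, huw⟩ := hu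
    have huu := mem_plane hF h huw huw
    have h4 : (X.filter fun x => tv x = tv u) = (univ.filter fun c : F => c ≠ 0).image fun c => c • u := by
      ext x
      rw [Finset.mem_filter, Finset.mem_image]
      constructor
      · rintro ⟨hx, hxu⟩
        rw [Finset.mem_filter] at hx
        obtain ⟨-, hx0, hxw⟩ := hx
        obtain ⟨c, hc, hc2⟩ := (tv_eq_iff hF hu0 huu (mem_plane hF h hxw hxw)).1 hxu.symm
        refine ⟨c, ?_, ?_⟩
        · rw [Finset.mem_filter]; exact ⟨mem_univ _, hc⟩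
        · exact hc2.symm
      · rintro ⟨c, hc, rfl⟩
        rw [Finset.mem_filter] at hc
        refine ⟨?_, tv_smul hF huu hc.2⟩
        rw [Finset.mem_filter]
        exact ⟨mem_univ _, smul_ne_zero hc.2 hu0, fun i => by rw [hermForm_smul_left, huw, mul_zero]⟩
    rw [h4, Finset.card_image_of_injective _ (smul_left_injective F hu0)]
    have h5 : (univ.filter fun c : F => c ≠ 0) = univ.erase 0 := by
      ext c; simp
    rw [h5, Finset.card_erase_of_mem (mem_univ _), Finset.card_univ, hF]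
    norm_num
  have h6 := Finset.card_eq_sum_card_image tv X
  rw [Finset.sum_congr rfl h3, Finset.sum_const, smul_eq_mul, hX] at h6
  omega

include hF h in
/-- products of two distinct transvections -/
theorem tv_pair {x y : Fin 6 → F} (hx0 : x ≠ 0) (hy0 : y ≠ 0) (hxw : ∀ i, hermForm 6 F 2 x (w i) = 0)
    (hyw : ∀ i, hermForm 6 F 2 y (w i) = 0) (hne : tv x ≠ tv y) :
    IsTI 2 ![x, y] ∧ IsTvs (tv x * tv y) ![x, y] := by
  have hxx := mem_plane hF h hxw hxw
  have hyy := mem_plane hF h hyw hyw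
  have hxy := mem_plane hF h hxw hyw
  have hyx := mem_plane hF h hyw hxw
  refine ⟨⟨?_, ?_⟩, ?_⟩
  · rw [LinearIndependent.pair_iff' hx0]
    intro a ha
    apply hne
    have ha0 : a ≠ 0 := by
      rintro rfl
      rw [zero_smul] at ha
      exact hy0 ha.symm
    rw [← ha, tv_smul hF hxx ha0]
  · intro i j
    fin_cases i <;> fin_cases j <;> simp [hxx, hyy, hxy, hyx]
  · intro z
    rw [act_mul, tv_act hF hyy, tv_act hF hxx, hermForm_add_left, hermForm_smul_left, hyx, mul_zero, add_zero]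
    simp only [Fin.sum_univ_two, Matrix.cons_val_zero, Matrix.cons_val_one]
    abel

include hF h in
/-- unique factorisation for rank two -/
theorem pair_unique {x y x' y' : Fin 6 → F} (hx0 : x ≠ 0) (hy0 : y ≠ 0)
    (hxw : ∀ i, hermForm 6 F 2 x (w i) = 0) (hyw : ∀ i, hermForm 6 F 2 y (w i) = 0)
    (hxw' : ∀ i, hermForm 6 F 2 x' (w i) = 0) (hyw' : ∀ i, hermForm 6 F 2 y' (w i) = 0) (hne : tv x ≠ tv y)
    (heq : tv x * tv y = tv x' * tv y') : tv x' = tv y ∨ tv y' = tv y := by
  have hxx := mem_plane hF h hxw hxw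
  have hyy := mem_plane hF h hyw hyw
  have hxx' := mem_plane hF h hxw' hxw'
  have hyy' := mem_plane hF h hyw' hyw'
  by_contra hcon
  push Not at hcon
  have key : ∀ z, rk [x, y, x', y'] z = 0 := by
    intro z
    have h1 : act (tv x * tv y) z = act (tv x' * tv y') z := by rw [heq]
    rw [act_mul, act_mul, tv_act hF hyy, tv_act hF hxx, tv_act hF hyy', tv_act hF hxx', hermForm_add_left,
      hermForm_add_left, hermForm_smul_left, hermForm_smul_left, mem_plane hF h hyw hxw,
      mem_plane hF h hyw' hxw', mul_zero, mul_zero, add_zero, add_zero, add_assoc, add_assoc] at h1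
    have h2 := add_left_cancel h1
    rw [rk_cons, rk_cons, rk_cons, rk_cons, rk_nil, add_zero]
    have h3 : hermForm 6 F 2 z x • x + hermForm 6 F 2 z y • y =
        hermForm 6 F 2 z x' • x' + hermForm 6 F 2 z y' • y' := by
      rw [add_comm, h2, add_comm]
    rw [← add_assoc, h3]
    exact vadd_self' hF _
  have prop : ∀ {a : Fin 6 → F} {c : F}, y = c • a → hermForm 6 F 2 a a = 0 → tv y = tv a := by
    intro a c hc haa
    have hc0 : c ≠ 0 := by
      rintro rfl
      rw [zero_smul] at hc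
      exact hy0 hc
    rw [hc, tv_smul hF haa hc0]
  refine no_four hF hx0 hy0 ?_ ?_ ?_ key
  · intro c hc
    exact hne (prop hc hxx).symm
  · intro c hc
    exact hcon.1 (prop hc hxx').symm
  · intro c hc
    exact hcon.2 (prop hc hyy').symm

include hF h in
open Classical in
theorem card_two : ((QF w).filter fun g => rnk g = 2).card = 210 := by
  set S1 := (QF w).filter fun g => rnk g = 1 with hS1
  have h1 : S1.card = 21 := card_one hF h
  have mem1 : ∀ s, s ∈ S1 ↔ ∃ x, x ≠ 0 ∧ (∀ i, hermForm 6 F 2 x (w i) = 0) ∧ s = tv x := by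
    intro s
    rw [hS1, Finset.mem_filter, mem_QF]
    constructor
    · rintro ⟨hg, hr⟩
      have h1 := (rnk_spec hF h hg).1
      rw [hr] at h1
      obtain ⟨u, hu, hgu⟩ := h1
      have h2 := RR_inP hF h hg hu hgu
      refine ⟨u 0, hu.1.ne_zero 0, h2.2 0, ?_⟩
      apply act_ext
      intro x
      rw [tv_act hF (hu.2 0 0), hgu x]
      simp
    · rintro ⟨x, hx0, hxw, rfl⟩
      have hxx := mem_plane hF h hxw hxw
      refine ⟨fun i => ?_, rnk_eq hF ⟨fun _ => x, ⟨LinearIndependent.of_subsingleton 0 hx0, fun _ _ => hxx⟩, fun y => ?_⟩⟩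
      · rw [tv_act hF hxx, (hermForm_eq_zero_comm hF).1 (hxw i), zero_smul, add_zero]
      · rw [tv_act hF hxx]
        simp
  have himg : ((QF w).filter fun g => rnk g = 2) = S1.offDiag.image fun p => p.1 * p.2 := by
    ext g
    rw [Finset.mem_filter, mem_QF, Finset.mem_image]
    constructor
    · rintro ⟨hg, hr⟩
      have h2 := (rnk_spec hF h hg).1
      rw [hr] at h2
      obtain ⟨u, hu, hgu⟩ := h2
      have h3 := RR_inP hF h hg hu hgu
      refine ⟨(tv (u 0), tv (u 1)), ?_, ?_⟩
      · rw [Finset.mem_offDiag]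
        refine ⟨(mem1 _).2 ⟨u 0, hu.1.ne_zero 0, h3.2 0, rfl⟩, (mem1 _).2 ⟨u 1, hu.1.ne_zero 1, h3.2 1, rfl⟩, ?_⟩
        intro h4
        obtain ⟨c, hc, hc2⟩ := (tv_eq_iff hF (hu.1.ne_zero 0) (hu.2 0 0) (hu.2 1 1)).1 h4
        have h5 := Fintype.linearIndependent_iff.1 hu.1 ![c, -1] (by
          rw [Fin.sum_univ_two]
          simp only [Matrix.cons_val_zero, Matrix.cons_val_one]
          rw [hc2]
          module) 1
        simp at h5
      · apply act_ext
        intro x
        show act (tv (u 0) * tv (u 1)) x = _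
        rw [hgu x, act_mul, tv_act hF (hu.2 0 0), tv_act hF (hu.2 1 1), hermForm_add_left, hermForm_smul_left,
          hu.2 1 0, mul_zero, add_zero, Fin.sum_univ_two]
        abel
    · rintro ⟨⟨s, t⟩, hst, rfl⟩
      rw [Finset.mem_offDiag] at hst
      obtain ⟨hs, ht, hne⟩ := hst
      obtain ⟨x, hx0, hxw, rfl⟩ := (mem1 s).1 hs
      obtain ⟨y, hy0, hyw, rfl⟩ := (mem1 t).1 ht
      obtain ⟨h3, h4⟩ := tv_pair hF h hx0 hy0 hxw hyw hne
      refine ⟨mul_mem (mem_QF.1 (Finset.mem_filter.1 hs).1) (mem_QF.1 (Finset.mem_filter.1 ht).1), ?_⟩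
      exact rnk_eq hF ⟨_, h3, h4⟩
  have h3 : ∀ b ∈ S1.offDiag.image (fun p => p.1 * p.2), (S1.offDiag.filter fun p => p.1 * p.2 = b).card = 2 := by
    intro b hb
    obtain ⟨⟨s, t⟩, hst, rfl⟩ := Finset.mem_image.1 hb
    rw [Finset.mem_offDiag] at hst
    obtain ⟨hs, ht, hne⟩ := hst
    have h4 : (S1.offDiag.filter fun p => p.1 * p.2 = s * t) = {(s, t), (t, s)} := by
      ext ⟨a, b⟩
      rw [Finset.mem_filter, Finset.mem_offDiag, Finset.mem_insert, Finset.mem_singleton, Prod.mk.injEq, Prod.mk.injEq]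
      have hcomm : s * t = t * s := QW_comm hF h (mem_QF.1 (Finset.mem_filter.1 hs).1) (mem_QF.1 (Finset.mem_filter.1 ht).1)
      constructor
      · rintro ⟨⟨ha1, hb1, hab⟩, heq⟩
        replace heq : a * b = s * t := heq
        replace ha1 : a ∈ S1 := ha1
        replace hb1 : b ∈ S1 := hb1
        obtain ⟨x, hx0, hxw, rfl⟩ := (mem1 s).1 hs
        obtain ⟨y, hy0, hyw, rfl⟩ := (mem1 t).1 ht
        obtain ⟨x', hx0', hxw', rfl⟩ := (mem1 a).1 ha1
        obtain ⟨y', hy0', hyw', rfl⟩ := (mem1 b).1 hb1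
        rcases pair_unique hF h hx0 hy0 hxw hyw hxw' hyw' hne heq.symm with h5 | h5
        · right
          refine ⟨h5, ?_⟩
          rw [h5, hcomm] at heq
          exact mul_left_cancel heq
        · left
          refine ⟨?_, h5⟩
          rw [h5] at heq
          exact mul_right_cancel heq
      · rintro (⟨rfl, rfl⟩ | ⟨rfl, rfl⟩)
        · exact ⟨⟨hs, ht, hne⟩, rfl⟩
        · exact ⟨⟨ht, hs, hne.symm⟩, hcomm.symm⟩
    show (S1.offDiag.filter fun p => p.1 * p.2 = s * t).card = 2
    rw [h4, Finset.card_pair]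
    intro h5
    exact hne (Prod.mk.inj h5).1
  have h6 := Finset.card_eq_sum_card_image (fun p : SU 6 F 2 × SU 6 F 2 => p.1 * p.2) S1.offDiag
  rw [Finset.sum_congr rfl h3, Finset.sum_const, smul_eq_mul, Finset.offDiag_card, h1] at h6
  rw [himg]
  omega

include hF h in
open Classical in
theorem card_zero' : ((QF w).filter fun g => rnk g = 0).card = 1 := by
  rw [Finset.card_eq_one]
  refine ⟨1, ?_⟩
  ext g
  rw [Finset.mem_filter, mem_QF, Finset.mem_singleton]
  constructor
  · rintro ⟨hg, hr⟩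
    have h1 := (rnk_spec hF h hg).1
    rw [hr] at h1
    exact RR_zero.1 h1
  · rintro rfl
    exact ⟨one_mem _, rnk_eq hF (RR_zero.2 rfl)⟩

include hF h in
open Classical in
/-- a sum over `QW` of a function of the rank -/
theorem sum_rank (f : ℕ → ℕ) : ∑ g ∈ QF w, f (rnk g) = f 0 + 21 * f 1 + 210 * f 2 + 280 * f 3 := by
  have hmaps : ∀ g ∈ QF w, rnk g ∈ Finset.range 4 := by
    intro g hg
    have := (rnk_spec hF h (mem_QF.1 hg)).2
    rw [Finset.mem_range]
    omega
  have h1 := Finset.card_eq_sum_card_fiberwise (s := QF w) (t := Finset.range 4) (f := rnk) (fun g hg => hmaps g hg)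
  rw [card_QF hF h] at h1
  have h2 : ∑ g ∈ QF w, f (rnk g) = ∑ k ∈ Finset.range 4, ∑ g ∈ (QF w).filter (fun g => rnk g = k), f (rnk g) :=
    (Finset.sum_fiberwise_of_maps_to hmaps _).symm
  have h3 : ∀ k ∈ Finset.range 4, ∑ g ∈ (QF w).filter (fun g => rnk g = k), f (rnk g) =
      ((QF w).filter fun g => rnk g = k).card * f k := by
    intro k _
    rw [Finset.sum_congr rfl (g := fun _ => f k), Finset.sum_const, smul_eq_mul]
    intro g hg
    rw [(Finset.mem_filter.1 hg).2]
  rw [h2, Finset.sum_congr rfl h3]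
  simp only [Finset.sum_range_succ, Finset.sum_range_zero, zero_add] at h1 ⊢
  rw [card_zero' hF h, card_one hF h, card_two hF h] at h1 ⊢
  have h4 : ((QF w).filter fun g => rnk g = 3).card = 280 := by omega
  rw [h4, one_mul]

end

end Cfsg.Agent.UTh
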