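import Cfsg.Agent.UTh.Max

/-!
# Sylow 2-subgroups of a double cover of `PSU_6(F4)` and their largest elementary abelian subgroups
-/

set_option autoImplicit false
set_option linter.unusedSectionVars false
set_option linter.unusedSimpArgs false

namespace Cfsg.Agent.UTh

open Finset Matrix Module Cfsg.Agent.Uni Cfsg.Agent.Fi22 Cfsg.Agent.UDbl

variable {F : Type*} [Field F] [Fintype F]

/-- the projection as a homomorphism -/
def prh (F : Type*) [Field F] [Fintype F] : SU 6 F 2 →* PSU 6 F 2 := QuotientGroup.mk' _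

theorem prh_apply (g : SU 6 F 2) : prh F g = pr g := rfl

section
variable (hF : Fintype.card F = 2 ^ 2) {w v : Fin 3 → Fin 6 → F} (h : HB w v)

theorem HB.w_ne (h : HB w v) (i : Fin 3) : w i ≠ 0 := h.li.ne_zero i

include hF h in
/-- `pr` is injective on `TT` -/
theorem eq_one_of_pr {g : SU 6 F 2} (hg : g ∈ TT w) (hp : pr g = 1) : g = 1 :=
  eq_one_of_center hF (by norm_num) (pr_eq_one_iff.1 hp) (h.li.ne_zero 0) hg.1

include hF h in
theorem pr_inj {g k : SU 6 F 2} (hg : g ∈ TT w) (hk : k ∈ TT w) (hp : pr g = pr k) : g = k := by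
  have h1 : pr (g⁻¹ * k) = 1 := by
    show (pr g)⁻¹ * pr k = 1
    rw [hp, inv_mul_cancel]
  exact inv_mul_eq_one.1 (eq_one_of_pr hF h (mul_mem (inv_mem hg) hk) h1)

include hF h in
theorem card_map_pr {L : Subgroup (SU 6 F 2)} (hL : L ≤ TT w) : Nat.card (L.map (prh F)) = Nat.card L := by
  have h1 : Function.Injective ((prh F).comp L.subtype) := by
    intro a b hab
    exact Subtype.ext (pr_inj hF h (hL a.2) (hL b.2) hab)
  have h2 : L.map (prh F) = ((prh F).comp L.subtype).range := by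
    rw [MonoidHom.range_comp, Subgroup.range_subtype]
  rw [h2]
  exact (Nat.card_congr (MonoidHom.ofInjective h1).toEquiv).symm

include hF h in
/-- elements of the plane -/
theorem mem_plane {x : Fin 6 → F} (hx : ∀ i, hermForm 6 F 2 x (w i) = 0) {y : Fin 6 → F}
    (hy : ∀ i, hermForm 6 F 2 y (w i) = 0) : hermForm 6 F 2 x y = 0 := by
  rw [HB_expand_w hF h hy]
  simp only [hermForm_add_right hF, hermForm_smul_right, hx, mul_zero, add_zero]

include hF h in
/-- the elements of `QW` by rank -/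
theorem QW_types {g : SU 6 F 2} (hg : g ∈ QW w) : g = 1 ∨
    (∃ u, u ≠ 0 ∧ (∀ i, hermForm 6 F 2 u (w i) = 0) ∧ g = tv u) ∨
    (∃ u : Fin 2 → Fin 6 → F, IsTI 2 u ∧ (∀ j i, hermForm 6 F 2 (u j) (w i) = 0) ∧ g = tv (u 0) * tv (u 1)) ∨
    (∃ u : Fin 3 → Fin 6 → F, IsTI 2 u ∧ (∀ j i, hermForm 6 F 2 (u j) (w i) = 0) ∧
      g = tv (u 0) * tv (u 1) * tv (u 2)) := by
  obtain ⟨k, u, hu, hgu⟩ := exists_isTvs hF (QW_sq hF h hg)
  have hk := Fi22.IsTI.two_mul_le hF hu
  have huw : ∀ j i, hermForm 6 F 2 (u j) (w i) = 0 := by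
    intro j i
    have h1 := hgu (w i)
    rw [hg i] at h1
    have h2 : ∑ j, hermForm 6 F 2 (w i) (u j) • u j = 0 := left_eq_add.1 h1
    exact (hermForm_eq_zero_comm hF).1 (Fintype.linearIndependent_iff.1 hu.1 _ h2 j)
  have hk3 : k = 0 ∨ k = 1 ∨ k = 2 ∨ k = 3 := by omega
  rcases hk3 with rfl | rfl | rfl | rfl
  · left
    apply act_ext
    intro x
    rw [hgu x, act_one]
    simp
  · right; left
    refine ⟨u 0, hu.1.ne_zero 0, huw 0, ?_⟩
    apply act_ext
    intro x
    rw [hgu x, tv_act hF (hu.2 0 0)]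
    simp
  · right; right; left
    refine ⟨u, hu, huw, ?_⟩
    apply act_ext
    intro x
    rw [hgu x, act_mul, tv_act hF (hu.2 0 0), tv_act hF (hu.2 1 1), hermForm_add_left, hermForm_smul_left,
      hu.2 1 0, mul_zero, add_zero, Fin.sum_univ_two]
    abel
  · right; right; right
    refine ⟨u, hu, huw, ?_⟩
    apply act_ext
    intro x
    rw [hgu x, act_mul, act_mul, tv_act hF (hu.2 0 0), tv_act hF (hu.2 1 1), tv_act hF (hu.2 2 2)]
    simp only [hermForm_add_left, hermForm_smul_left, hu.2 1 0, hu.2 2 0, hu.2 2 1, mul_zero, add_zero]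
    rw [Fin.sum_univ_three]
    abel

/-! ### Conjugation -/

theorem HB_map (h : HB w v) (g : SU 6 F 2) : HB (fun i => act g (w i)) (fun i => act g (v i)) :=
  ⟨fun i j => by rw [act_form, h.uu], fun i j => by rw [act_form, h.vv], fun i j => by rw [act_form, h.uv]⟩

theorem conj_TT {g k : SU 6 F 2} (hk : k ∈ TT w) : g * k * g⁻¹ ∈ TT (fun i => act g (w i)) := by
  obtain ⟨k0, ⟨a, k1⟩, b, c, k2⟩ := hk
  have key : ∀ x, act (g * k * g⁻¹) (act g x) = act g (act k x) := by
    intro x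
    rw [act_mul, act_mul, act_inv_act]
  refine ⟨by rw [key, k0], ⟨a, by rw [key, k1, act_add, act_smul]⟩, b, c, by
    rw [key, k2, act_add, act_add, act_smul, act_smul]⟩

theorem conj_QW {g k : SU 6 F 2} (hk : k ∈ QW w) : g * k * g⁻¹ ∈ QW (fun i => act g (w i)) := by
  intro i
  rw [act_mul, act_mul, act_inv_act, hk i]

end

section cover

variable {H : Type*} [Group H] {z : H} {φ : H →* PSU 6 F 2}

/-- the preimage of the unitriangular group -/
def SW (φ : H →* PSU 6 F 2) (w : Fin 3 → Fin 6 → F) : Subgroup H := ((TT w).map (prh F)).comap φ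

/-- the preimage of the pointwise stabiliser of the plane -/
def AW (φ : H →* PSU 6 F 2) (w : Fin 3 → Fin 6 → F) : Subgroup H := ((QW w).map (prh F)).comap φ

theorem mem_SW {w : Fin 3 → Fin 6 → F} {x : H} : x ∈ SW φ w ↔ ∃ g ∈ TT w, pr g = φ x := Iff.rfl

theorem mem_AW {w : Fin 3 → Fin 6 → F} {x : H} : x ∈ AW φ w ↔ ∃ g ∈ QW w, pr g = φ x := Iff.rfl

theorem AW_le_SW (w : Fin 3 → Fin 6 → F) : AW φ w ≤ SW φ w := by
  rintro x ⟨g, hg, hx⟩
  exact ⟨g, QW_le_TT w hg, hx⟩

variable (hF : Fintype.card F = 2 ^ 2) {w v : Fin 3 → Fin 6 → F} (h : HB w v) (D : Dbl φ z)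

include D

theorem card_comap [Finite H] (L : Subgroup (PSU 6 F 2)) : Nat.card (L.comap φ) = 2 * Nat.card L := by
  have h1 := (L.comap φ).card_mul_index
  rw [Subgroup.index_comap_of_surjective L D.surj] at h1
  have h2 := L.card_mul_index
  have h3 : Nat.card φ.ker = 2 := by
    have : (φ.ker : Set H) = {1, z} := by
      ext x
      rw [SetLike.mem_coe, MonoidHom.mem_ker, Set.mem_insert_iff, Set.mem_singleton_iff]
      constructor
      · exact D.ker x
      · rintro (rfl | rfl)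
        · exact map_one φ
        · exact D.phz
    have h4 : Nat.card φ.ker = (φ.ker : Set H).ncard := rfl
    rw [h4, this, Set.ncard_pair D.ne.symm]
  have h5 := Subgroup.card_eq_card_quotient_mul_card_subgroup φ.ker
  rw [Nat.card_congr (QuotientGroup.quotientKerEquivOfSurjective φ D.surj).toEquiv, h3] at h5
  have h6 : L.index ≠ 0 := Subgroup.index_ne_zero_of_finite
  rw [h5, ← h2] at h1
  apply Nat.eq_of_mul_eq_mul_right (Nat.pos_of_ne_zero h6)
  rw [h1]
  ring

include hF in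
theorem card_H [Finite H] : Nat.card H = 2 ^ 16 * 25515 * 11 := by
  have h1 := card_comap D (⊤ : Subgroup (PSU 6 F 2)) 
  rw [Subgroup.comap_top, Subgroup.card_top, Subgroup.card_top, card_PSU_six hF] at h1
  rw [h1]
  norm_num

include hF h in
theorem card_SW [Finite H] : Nat.card (SW φ w) = 2 ^ 16 := by
  rw [SW, card_comap D, card_map_pr hF h le_rfl, card_TT hF h]
  norm_num

include hF h in
theorem card_AW [Finite H] : Nat.card (AW φ w) = 2 ^ 10 := by
  rw [AW, card_comap D, card_map_pr hF h (QW_le_TT w), card_QW hF h]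
  norm_num

include hF h in
/-- lifts of transvections with centres in the plane -/
theorem lifts_plane {u u' : Fin 6 → F} (hu0 : u ≠ 0) (hu0' : u' ≠ 0) (hu : ∀ i, hermForm 6 F 2 u (w i) = 0)
    (hu' : ∀ i, hermForm 6 F 2 u' (w i) = 0) {t t' : H} (ht : φ t = pr (tv u)) (ht' : φ t' = pr (tv u')) :
    t * t = 1 ∧ t * t' = t' * t := by
  have huu := mem_plane hF h hu hu
  have huu' := mem_plane hF h hu' hu'
  have huv := mem_plane hF h hu hu'
  have hsq : t * t = 1 := by
    obtain ⟨w', v', hwv', hw'⟩ := exists_HB_of_TI hF (k := 1) (by norm_num) (u := fun _ => u)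
      ⟨LinearIndependent.of_subsingleton 0 hu0, fun _ _ => huu⟩
    have e0 : w' 0 = u := hw' 0
    have hli : LinearIndependent F ![u, w' 1] := by
      have h1 := hwv'.li.comp (![0, 1] : Fin 2 → Fin 3) (by decide)
      convert h1 using 1
      funext i
      fin_cases i
      · exact e0.symm
      · rfl
    obtain ⟨t1, ht1⟩ := D.surj (pr (tv (w' 1)))
    have h2 := hwv'.uu 0 1
    rw [e0] at h2
    exact (D.lifts hF hli huu (hwv'.uu 1 1) h2 ht ht1).1
  refine ⟨hsq, ?_⟩
  by_cases hli : LinearIndependent F ![u, u']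
  · exact (D.lifts hF hli huu huu' huv ht ht').2
  · rw [LinearIndependent.pair_iff' hu0] at hli
    push Not at hli
    obtain ⟨c, hc⟩ := hli
    have hc0 : c ≠ 0 := by
      rintro rfl
      rw [zero_smul] at hc
      exact hu0' hc.symm
    have h3 : φ t' = φ t := by rw [ht, ht', ← hc, tv_smul hF huu hc0]
    obtain ⟨d, hd, rfl⟩ := D.exists_c h3
    rw [mul_assoc, D.cen' hd t]

include hF h in
theorem AW_abel : (∀ x ∈ AW φ w, ∀ y ∈ AW φ w, x * y = y * x) ∧ ∀ x ∈ AW φ w, x * x = 1 := by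
  set T : Set H := {t | (∃ u, u ≠ 0 ∧ (∀ i, hermForm 6 F 2 u (w i) = 0) ∧ φ t = pr (tv u)) ∨ φ t = 1} with hT
  have hTc : ∀ x ∈ T, ∀ y ∈ T, x * y = y * x := by
    rintro x (⟨u, hu0, hu, hx⟩ | hx) y (⟨u', hu0', hu', hy⟩ | hy)
    · exact (lifts_plane hF h D hu0 hu0' hu hu' hx hy).2
    · exact (D.cen' hy x).symm
    · exact D.cen' hx y
    · exact D.cen' hx y
  have hTs : ∀ x ∈ T, x * x = 1 := by
    rintro x (⟨u, hu0, hu, hx⟩ | hx)
    · exact (lifts_plane hF h D hu0 hu0 hu hu hx hx).1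
    · exact D.sq' hx
  have hle : AW φ w ≤ Subgroup.closure T := by
    rintro x ⟨g, hg, hx⟩
    have key : ∀ {a y : H}, a ∈ Subgroup.closure T → φ a = φ y → y ∈ Subgroup.closure T := by
      intro a y ha hay
      obtain ⟨c, hc, rfl⟩ := D.exists_c hay.symm
      exact mul_mem ha (Subgroup.subset_closure (Or.inr hc))
    have hx' : φ x = pr g := hx.symm
    rcases QW_types hF h hg with rfl | ⟨u, hu0, hu, rfl⟩ | ⟨u, hu, huw, rfl⟩ | ⟨u, hu, huw, rfl⟩
    · exact Subgroup.subset_closure (Or.inr hx')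
    · exact Subgroup.subset_closure (Or.inl ⟨u, hu0, hu, hx'⟩)
    · obtain ⟨t0, ht0⟩ := D.surj (pr (tv (u 0)))
      obtain ⟨t1, ht1⟩ := D.surj (pr (tv (u 1)))
      refine key (a := t0 * t1) (mul_mem (Subgroup.subset_closure (Or.inl ⟨_, hu.1.ne_zero 0, huw 0, ht0⟩))
        (Subgroup.subset_closure (Or.inl ⟨_, hu.1.ne_zero 1, huw 1, ht1⟩))) ?_
      rw [map_mul, ht0, ht1, hx']
      rfl
    · obtain ⟨t0, ht0⟩ := D.surj (pr (tv (u 0)))
      obtain ⟨t1, ht1⟩ := D.surj (pr (tv (u 1)))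
      obtain ⟨t2, ht2⟩ := D.surj (pr (tv (u 2)))
      refine key (a := t0 * t1 * t2) (mul_mem (mul_mem
        (Subgroup.subset_closure (Or.inl ⟨_, hu.1.ne_zero 0, huw 0, ht0⟩))
        (Subgroup.subset_closure (Or.inl ⟨_, hu.1.ne_zero 1, huw 1, ht1⟩)))
        (Subgroup.subset_closure (Or.inl ⟨_, hu.1.ne_zero 2, huw 2, ht2⟩))) ?_
      rw [map_mul, map_mul, ht0, ht1, ht2, hx']
      rfl
  have hcc : ∀ x ∈ Subgroup.closure T, ∀ y ∈ Subgroup.closure T, x * y = y * x := by
    intro x hx y hy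
    have h1 : Subgroup.closure T ≤ Subgroup.centralizer (Subgroup.centralizer T) :=
      Subgroup.closure_le_centralizer_centralizer T
    have h2 : Subgroup.closure T ≤ Subgroup.centralizer T := by
      rw [Subgroup.closure_le]
      intro a ha
      rw [SetLike.mem_coe, Subgroup.mem_centralizer_iff]
      intro b hb
      exact hTc b hb a ha
    exact (Subgroup.mem_centralizer_iff.1 (h1 hx) y (h2 hy)).symm
  refine ⟨fun x hx y hy => hcc x (hle hx) y (hle hy), fun x hx => ?_⟩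
  have hx' := hle hx
  clear hx
  induction hx' using Subgroup.closure_induction with
  | mem x hx => exact hTs x hx
  | one => exact mul_one 1
  | mul x y hx hy h1 h2 =>
    calc x * y * (x * y) = x * (y * x) * y := by simp only [mul_assoc]
      _ = x * (x * y) * y := by rw [hcc y hy x hx]
      _ = (x * x) * (y * y) := by simp only [mul_assoc]
      _ = 1 := by rw [h1, h2, mul_one]
  | inv x hx h1 => rw [inv_eq_of_mul_eq_one_left h1, h1]

include hF h in
/-- **the largest elementary abelian subgroup of the Sylow subgroup** -/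
theorem eq_AW [Finite H] {B : Subgroup H} (hB : B ≤ SW φ w) (hsq : ∀ b ∈ B, b * b = 1)
    (hc : 2 ^ 10 ≤ Nat.card B) : B = AW φ w := by
  set L : Subgroup (SU 6 F 2) := TT w ⊓ (B.map φ).comap (prh F) with hL
  have hLsq : ∀ g ∈ L, g * g = 1 := by
    rintro g ⟨hg, b, hb, hbg⟩
    apply eq_one_of_pr hF h (mul_mem hg hg)
    show prh F g * prh F g = 1
    rw [← hbg, ← map_mul, hsq b hb, map_one]
  have hLmap : L.map (prh F) = B.map φ := by
    apply le_antisymm
    · rintro _ ⟨g, ⟨-, hg⟩, rfl⟩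
      exact hg
    · rintro _ ⟨b, hb, rfl⟩
      obtain ⟨g, hg, hgb⟩ := hB hb
      refine ⟨g, ⟨hg, b, hb, ?_⟩, hgb⟩
      exact hgb.symm
  have hcL : Nat.card L = Nat.card (B.map φ) := by
    rw [← hLmap, card_map_pr hF h inf_le_left]
  have h2 : Nat.card B ≤ 2 * Nat.card (B.map φ) := by
    rw [← card_comap D (B.map φ)]
    exact Nat.card_le_card_of_injective (Subgroup.inclusion (Subgroup.le_comap_map φ B))
      (Subgroup.inclusion_injective _)
  have h3 : 2 ^ 9 ≤ Nat.card L := by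
    rw [hcL]
    omega
  have h4 := eq_QW hF h inf_le_left hLsq h3
  have h5 : B ≤ AW φ w := by
    intro b hb
    have h6 : φ b ∈ B.map φ := ⟨b, hb, rfl⟩
    rw [← hLmap, hL, h4] at h6
    exact h6
  exact Subgroup.eq_of_le_of_card_ge h5 (by rw [card_AW hF h D]; exact hc)

theorem conj_SW {x y : H} {g : SU 6 F 2} (hx : φ x = pr g) (hy : y ∈ SW φ w) :
    x * y * x⁻¹ ∈ SW φ (fun i => act g (w i)) := by
  obtain ⟨k, hk, hky⟩ := hy
  refine ⟨g * k * g⁻¹, conj_TT hk, ?_⟩
  rw [map_mul, map_mul, map_inv, map_mul, map_mul, map_inv, hky, hx]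
  rfl

theorem conj_AW {x y : H} {g : SU 6 F 2} (hx : φ x = pr g) (hy : y ∈ AW φ w) :
    x * y * x⁻¹ ∈ AW φ (fun i => act g (w i)) := by
  obtain ⟨k, hk, hky⟩ := hy
  refine ⟨g * k * g⁻¹, conj_QW hk, ?_⟩
  rw [map_mul, map_mul, map_inv, map_mul, map_mul, map_inv, hky, hx]
  rfl

include hF in
/-- every 2-subgroup is contained in one of the given Sylow subgroups -/
theorem exists_SW [Finite H] {P : Subgroup H} (hP : IsPGroup 2 P) : ∃ w v : Fin 3 → Fin 6 → F, HB w v ∧ P ≤ SW φ w := by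
  haveI : Fact (Nat.Prime 2) := ⟨Nat.prime_two⟩
  obtain ⟨w, v, h⟩ := exists_HB (F := F) hF
  have hS : IsPGroup 2 (SW φ w) := IsPGroup.of_card (card_SW hF h D)
  obtain ⟨S0, hS0⟩ := hS.exists_le_sylow
  obtain ⟨P0, hP0⟩ := hP.exists_le_sylow
  have hcard : Nat.card (S0 : Subgroup H) = 2 ^ 16 := by
    rw [Sylow.card_eq_multiplicity, card_H hF D]
    have e : (2 ^ 16 * 25515 * 11 : ℕ) = 2 ^ 16 * 280665 := by norm_num
    rw [e, Nat.factorization_mul (by norm_num) (by norm_num), Finsupp.add_apply, Nat.Prime.factorization_pow Nat.prime_two,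
      Nat.factorization_eq_zero_of_not_dvd (by norm_num : ¬ 2 ∣ 280665), Finsupp.single_eq_same, add_zero]
  have hSS : SW φ w = S0 := Subgroup.eq_of_le_of_card_ge hS0 (by rw [hcard, card_SW hF h D])
  obtain ⟨x, hx⟩ := MulAction.exists_smul_eq H S0 P0
  obtain ⟨g, hg⟩ := QuotientGroup.mk_surjective (φ x)
  refine ⟨_, _, HB_map h g, fun p hp => ?_⟩
  have h1 := hP0 hp
  rw [← hx, Sylow.coe_subgroup_smul, Subgroup.mem_pointwise_smul_iff_inv_smul_mem] at h1
  have h2 : x⁻¹ * p * x ∈ SW φ w := by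
    rw [hSS]
    simpa [MulAut.smul_def] using h1
  have h3 := conj_SW D (x := x) (g := g) hg.symm h2
  have h4 : x * (x⁻¹ * p * x) * x⁻¹ = p := by group
  rwa [h4] at h3

end cover

end Cfsg.Agent.UTh
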