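import Cfsg.Agent.UTh.Split

/-!
# Fusion in the large elementary abelian subgroup
-/

set_option autoImplicit false
set_option linter.unusedSectionVars false
set_option linter.unusedSimpArgs false

namespace Cfsg.Agent.UTh

open Finset Matrix Module Cfsg.Agent.Uni Cfsg.Agent.Fi22 Cfsg.Agent.UDbl

variable {G : Type*} [Group G] [Finite G] {d : G}

theorem self_mem_cent (d : G) : d ∈ Subgroup.centralizer ({d} : Set G) := by
  rw [Subgroup.mem_centralizer_iff]
  rintro _ rfl
  rfl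

/-- the involution in its centraliser -/
def zC (d : G) : ↥(Subgroup.centralizer ({d} : Set G)) := ⟨d, self_mem_cent d⟩

variable {F : Type*} [Field F] [Fintype F]
variable {φ : ↥(Subgroup.centralizer ({d} : Set G)) →* PSU 6 F 2}
variable (hF : Fintype.card F = 2 ^ 2) (D : Dbl φ (zC d)) {w v : Fin 3 → Fin 6 → F} (h : HB w v)

/-- the large elementary abelian subgroup as a subgroup of `G` -/
def AG (φ : ↥(Subgroup.centralizer ({d} : Set G)) →* PSU 6 F 2) (w : Fin 3 → Fin 6 → F) : Subgroup G :=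
  (AW φ w).map (Subgroup.centralizer ({d} : Set G)).subtype

theorem mem_AG {x : G} : x ∈ AG φ w ↔ ∃ y ∈ AW φ w, (y : G) = x := Iff.rfl

include hF h D in
theorem AG_comm {x y : G} (hx : x ∈ AG φ w) (hy : y ∈ AG φ w) : x * y = y * x := by
  obtain ⟨x, hx, rfl⟩ := hx
  obtain ⟨y, hy, rfl⟩ := hy
  exact congrArg Subtype.val ((AW_abel hF h D).1 x hx y hy)

include hF h D in
theorem AG_sq {x : G} (hx : x ∈ AG φ w) : x * x = 1 := by
  obtain ⟨x, hx, rfl⟩ := hx
  exact congrArg Subtype.val ((AW_abel hF h D).2 x hx)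

include hF h D in
theorem card_AG : Nat.card (AG φ w) = 2 ^ 10 := by
  rw [AG, ← card_AW hF h D]
  exact Nat.card_congr ((AW φ w).equivMapOfInjective _ (Subgroup.subtype_injective _)).toEquiv.symm

include D in
theorem d_mem_AG : d ∈ AG φ w := ⟨zC d, ⟨1, one_mem _, D.phz.symm⟩, rfl⟩

theorem conj_bij {A : Subgroup G} {n : G} (hn : ∀ a ∈ A, n * a * n⁻¹ ∈ A) : n ∈ Subgroup.normalizer (A : Set G) :=
  Subgroup.mem_normalizer_fintype hn

theorem inv_conj_mem {A : Subgroup G} {n : G} (hn : n ∈ Subgroup.normalizer (A : Set G)) {a : G} (ha : a ∈ A) :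
    n⁻¹ * a * n ∈ A := by
  rw [Subgroup.mem_normalizer_iff] at hn
  rw [hn]
  have : n * (n⁻¹ * a * n) * n⁻¹ = a := by group
  rwa [this]

theorem conj_mem' {A : Subgroup G} {n : G} (hn : n ∈ Subgroup.normalizer (A : Set G)) {a : G} (ha : a ∈ A) :
    n * a * n⁻¹ ∈ A := by
  rw [Subgroup.mem_normalizer_iff] at hn
  exact (hn a).1 ha

include hF D h in
/-- the normaliser is transitive on the conjugates of `d` in `A` -/
theorem trans_AG {x : G} (hx : x ∈ AG φ w) (hdx : IsConj d x) :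
    ∃ n ∈ Subgroup.normalizer (AG φ w : Set G), n * d * n⁻¹ = x := by
  obtain ⟨g, hg⟩ := isConj_iff.1 hdx
  -- the subgroup of `C` of elements conjugated into `A` by `g`
  let B : Subgroup ↥(Subgroup.centralizer ({d} : Set G)) :=
    ((AG φ w).comap (MulAut.conj g).toMonoidHom).comap (Subgroup.centralizer ({d} : Set G)).subtype
  have hB : ∀ y, y ∈ B ↔ g * (y : G) * g⁻¹ ∈ AG φ w := fun _ => Iff.rfl
  have hback : ∀ a ∈ AG φ w, g⁻¹ * a * g ∈ Subgroup.centralizer ({d} : Set G) := by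
    intro a ha
    rw [Subgroup.mem_centralizer_iff]
    intro y hy
    rw [Set.mem_singleton_iff.1 hy]
    have h1 := AG_comm hF D h hx ha
    rw [← hg] at h1
    calc d * (g⁻¹ * a * g) = g⁻¹ * ((g * d * g⁻¹) * a) * g := by group
      _ = g⁻¹ * (a * (g * d * g⁻¹)) * g := by rw [h1]
      _ = g⁻¹ * a * g * d := by group
  have hcard : Nat.card B = 2 ^ 10 := by
    rw [← card_AG hF D h]
    refine Nat.card_congr ⟨fun y => ⟨g * (y : ↥(Subgroup.centralizer ({d} : Set G))) * g⁻¹, y.2⟩,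
      fun a => ⟨⟨g⁻¹ * a * g, hback a a.2⟩, ?_⟩, ?_, ?_⟩
    · rw [hB]
      show g * (g⁻¹ * a * g) * g⁻¹ ∈ AG φ w
      have : g * (g⁻¹ * a * g) * g⁻¹ = a := by group
      rw [this]; exact a.2
    · intro y
      apply Subtype.ext
      apply Subtype.ext
      show g⁻¹ * (g * (y : ↥(Subgroup.centralizer ({d} : Set G))) * g⁻¹) * g = _
      group
    · intro a
      apply Subtype.ext
      show g * (g⁻¹ * a * g) * g⁻¹ = (a : G)
      group
  have hsq : ∀ b ∈ B, b * b = 1 := by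
    intro b hb
    have h1 := AG_sq hF D h ((hB b).1 hb)
    apply Subtype.ext
    have h2 : g * (b : G) * g⁻¹ * (g * b * g⁻¹) = g * (b * b) * g⁻¹ := by group
    rw [h2] at h1
    have h3 : (b : G) * b = g⁻¹ * (g * (b * b) * g⁻¹) * g := by group
    show (b : G) * b = 1
    rw [h3, h1]
    group
  obtain ⟨w', v', h', hle⟩ := exists_SW hF D (P := B) (IsPGroup.of_card hcard)
  have hBA := eq_AW hF h' D hle hsq hcard.ge
  obtain ⟨s, hs⟩ := AW_conj hF D h h'
  refine ⟨g * s, conj_bij ?_, ?_⟩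
  · rintro _ ⟨a, ha, rfl⟩
    have h1 := hs a ha
    rw [← hBA, hB] at h1
    have h2 : g * (s : G) * a * (g * s)⁻¹ = g * ((s * a * s⁻¹ : ↥(Subgroup.centralizer ({d} : Set G))) : G) * g⁻¹ := by
      rw [Subgroup.coe_mul, Subgroup.coe_mul, Subgroup.coe_inv]
      group
    show g * (s : G) * a * (g * s)⁻¹ ∈ AG φ w
    rw [h2]
    exact h1
  · have h1 : (s : G) * d = d * s := (Subgroup.mem_centralizer_iff.1 s.2 d rfl).symm
    calc g * (s : G) * d * (g * s)⁻¹ = g * (s * d) * (s : G)⁻¹ * g⁻¹ := by group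
      _ = g * (d * s) * (s : G)⁻¹ * g⁻¹ := by rw [h1]
      _ = g * d * g⁻¹ := by group
      _ = x := hg

/-! ### Subgroup arguments -/

include hF D h in
theorem sub_a (hA : ∀ x ∈ AG φ w, IsConj d x ∨ IsConj d (x * d)) {x y : G} (hx : x ∈ AG φ w) (hy : y ∈ AG φ w)
    (hnx : ¬ IsConj d x) (hny : ¬ IsConj d y) : ¬ IsConj d (x * y) := by
  intro hxy
  obtain ⟨n, hn, hnd⟩ := trans_AG hF D h (mul_mem hx hy) hxy
  have h1 := inv_conj_mem hn hx
  have hc : ∀ a b : G, IsConj d a → IsConj d (b * a * b⁻¹) := by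
    intro a b hab
    exact hab.trans (isConj_iff.2 ⟨b, rfl⟩)
  rcases hA _ h1 with h2 | h2
  · apply hnx
    have := hc _ n h2
    have e : n * (n⁻¹ * x * n) * n⁻¹ = x := by group
    rwa [e] at this
  · apply hny
    have := hc _ n h2
    have e : n * (n⁻¹ * x * n * d) * n⁻¹ = x * (n * d * n⁻¹) := by group
    rw [e, hnd, ← mul_assoc, AG_sq hF D h hx, one_mul] at this
    exact this

include hF D h in
theorem sub_b (hA : ∀ x ∈ AG φ w, x ≠ d → IsConj d x → IsConj d (x * d)) {x y : G} (hx : x ∈ AG φ w)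
    (hy : y ∈ AG φ w) (hdx : IsConj d x) (hdy : IsConj d y) (hne : x ≠ y) : IsConj d (x * y) := by
  obtain ⟨n, hn, hnd⟩ := trans_AG hF D h hy hdy
  have h1 := inv_conj_mem hn hx
  have hc : ∀ a b : G, IsConj d a → IsConj d (b * a * b⁻¹) := by
    intro a b hab
    exact hab.trans (isConj_iff.2 ⟨b, rfl⟩)
  have h2 : IsConj d (n⁻¹ * x * n) := by
    have := hc _ n⁻¹ hdx
    rwa [inv_inv] at this
  have h3 : n⁻¹ * x * n ≠ d := by
    intro h4
    apply hne
    rw [← hnd, ← h4]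
    group
  have h4 := hc _ n (hA _ h1 h3 h2)
  have e : n * (n⁻¹ * x * n * d) * n⁻¹ = x * (n * d * n⁻¹) := by group
  rwa [e, hnd] at h4

/-- the number of conjugates of `d` in `A` -/
noncomputable def mm (φ : ↥(Subgroup.centralizer ({d} : Set G)) →* PSU 6 F 2) (w : Fin 3 → Fin 6 → F) : ℕ :=
  Set.ncard {x : G | x ∈ AG φ w ∧ IsConj d x}

theorem ncard_AG_eq : mm φ w = Set.ncard {x : ↥(Subgroup.centralizer ({d} : Set G)) | x ∈ AW φ w ∧ IsConj d (x : G)} := by
  have h1 : {x : G | x ∈ AG φ w ∧ IsConj d x} =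
      Subtype.val '' {x : ↥(Subgroup.centralizer ({d} : Set G)) | x ∈ AW φ w ∧ IsConj d (x : G)} := by
    ext x
    constructor
    · rintro ⟨⟨y, hy, rfl⟩, hx⟩
      exact ⟨y, ⟨hy, hx⟩, rfl⟩
    · rintro ⟨y, ⟨hy, hx⟩, rfl⟩
      exact ⟨⟨y, hy, rfl⟩, hx⟩
  rw [mm, h1, Set.ncard_image_of_injective _ Subtype.val_injective]

include hF D h in
theorem dvd_of_sub_a (hd1 : d ≠ 1) (hA : ∀ x ∈ AG φ w, IsConj d x ∨ IsConj d (x * d)) :
    1024 - mm φ w ∣ 2 ^ 10 := by
  let A1 : Subgroup G :=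
    { carrier := {x | x ∈ AG φ w ∧ ¬ IsConj d x}
      mul_mem' := fun hx hy => ⟨mul_mem hx.1 hy.1, sub_a hF D h hA hx.1 hy.1 hx.2 hy.2⟩
      one_mem' := ⟨one_mem _, fun h1 => hd1 (isConj_one_left.1 h1)⟩
      inv_mem' := by
        rintro x ⟨hx, hnx⟩
        refine ⟨inv_mem hx, ?_⟩
        rw [inv_eq_of_mul_eq_one_left (AG_sq hF D h hx)]
        exact hnx }
  have h1 : A1 ≤ AG φ w := fun x hx => hx.1
  have h2 := Subgroup.card_dvd_of_le h1
  rw [card_AG hF D h] at h2
  have h3 : Nat.card A1 = 1024 - mm φ w := by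
    have h4 : Nat.card A1 = ((AG φ w : Set G) \ {x : G | x ∈ AG φ w ∧ IsConj d x}).ncard := by
      show (A1 : Set G).ncard = _
      congr 1
      ext x
      constructor
      · rintro ⟨hx, hnx⟩
        exact ⟨hx, fun h5 => hnx h5.2⟩
      · rintro ⟨hx, hnx⟩
        exact ⟨hx, fun h5 => hnx ⟨hx, h5⟩⟩
    rw [h4, Set.ncard_sdiff (fun x hx => hx.1)]
    have h5 : (AG φ w : Set G).ncard = 2 ^ 10 := card_AG hF D h
    rw [h5]
    rfl
  rwa [h3] at h2

include hF D h in
theorem dvd_of_sub_b (hd1 : d ≠ 1) (hA : ∀ x ∈ AG φ w, x ≠ d → IsConj d x → IsConj d (x * d)) :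
    mm φ w + 1 ∣ 2 ^ 10 := by
  let A1 : Subgroup G :=
    { carrier := {x | x = 1 ∨ (x ∈ AG φ w ∧ IsConj d x)}
      mul_mem' := by
        rintro x y (rfl | hx) (rfl | hy)
        · left; exact mul_one 1
        · right; rw [one_mul]; exact hy
        · right; rw [mul_one]; exact hx
        · by_cases hxy : x = y
          · left
            rw [hxy, AG_sq hF D h hy.1]
          · right
            exact ⟨mul_mem hx.1 hy.1, sub_b hF D h hA hx.1 hy.1 hx.2 hy.2 hxy⟩
      one_mem' := Or.inl rfl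
      inv_mem' := by
        rintro x (rfl | hx)
        · left; exact inv_one
        · right
          rw [inv_eq_of_mul_eq_one_left (AG_sq hF D h hx.1)]
          exact hx }
  have h1 : A1 ≤ AG φ w := by
    rintro x (rfl | hx)
    · exact one_mem _
    · exact hx.1
  have h2 := Subgroup.card_dvd_of_le h1
  rw [card_AG hF D h] at h2
  have h3 : Nat.card A1 = mm φ w + 1 := by
    have h4 : (A1 : Set G) = insert 1 {x : G | x ∈ AG φ w ∧ IsConj d x} := rfl
    show (A1 : Set G).ncard = _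
    rw [h4, Set.ncard_insert_of_notMem]
    · rfl
    · rintro ⟨-, h5⟩
      exact hd1 (isConj_one_left.1 h5)
  rwa [h3] at h2

/-! ### Prime divisors -/

theorem dvd_of_modEq {p t n : ℕ} (hp : p.Prime) (hp2 : p ≠ 2) (ht : t < n) (hm : 2 ^ n ≡ 2 ^ t [MOD p]) :
    ∃ k, 1 ≤ k ∧ k ≤ n ∧ p ∣ 2 ^ k - 1 := by
  refine ⟨n - t, by omega, by omega, ?_⟩
  have h1 : p ∣ 2 ^ n - 2 ^ t := (Nat.modEq_iff_dvd' (Nat.pow_le_pow_right (by norm_num) ht.le)).1 hm.symm
  have h2 : 2 ^ n - 2 ^ t = 2 ^ t * (2 ^ (n - t) - 1) := by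
    rw [Nat.mul_sub, mul_one, ← pow_add]
    congr 2
    omega
  rw [h2] at h1
  rcases (Nat.Prime.dvd_mul hp).1 h1 with h3 | h3
  · exfalso
    exact hp2 ((Nat.prime_dvd_prime_iff_eq hp Nat.prime_two).1 (hp.dvd_of_dvd_pow h3))
  · exact h3

/-- a general statement on the normaliser of a 2-group acting transitively on a subset -/
theorem prime_dvd_aux {A : Subgroup G} {n : ℕ} (hA : Nat.card A = 2 ^ n) (hd : d ∈ A) {Δ : Set G}
    (hΔ : ∀ x, x ∈ Δ ↔ ∃ g ∈ Subgroup.normalizer (A : Set G), g * d * g⁻¹ = x) {p : ℕ} (hp : p.Prime) (hp2 : p ≠ 2)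
    (hpm : p ∣ Δ.ncard) : ∃ k, 1 ≤ k ∧ k ≤ n ∧ p ∣ 2 ^ k - 1 := by
  haveI : Fact p.Prime := ⟨hp⟩
  set N := Subgroup.normalizer (A : Set G) with hN
  letI act1 : MulAction N G := MulAction.compHom G ((MulAut.conj).comp N.subtype)
  have hact1 : ∀ (g : N) (x : G), g • x = g * x * (g : G)⁻¹ := fun _ _ => rfl
  have horb : MulAction.orbit N d = Δ := by
    ext x
    rw [MulAction.mem_orbit_iff, hΔ]
    constructor
    · rintro ⟨g, hg⟩
      exact ⟨g, g.2, hg⟩
    · rintro ⟨g, hg, hgx⟩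
      exact ⟨⟨g, hg⟩, hgx⟩
  have hidx := MulAction.index_stabilizer N d
  rw [horb] at hidx
  obtain ⟨P⟩ : Nonempty (Sylow p N) := inferInstance
  have hnP : ¬ (P : Subgroup N) ≤ MulAction.stabilizer N d := by
    intro h1
    have h2 := Subgroup.index_dvd_of_le h1
    rw [hidx] at h2
    exact P.not_dvd_index (hpm.trans h2)
  -- the action on `A`
  letI act2 : MulAction P A :=
    { smul := fun g a => ⟨(g : N) * a * ((g : N) : G)⁻¹, conj_mem' (g : N).2 a.2⟩
      one_smul := by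
        intro a
        apply Subtype.ext
        show ((1 : P) : N) * (a : G) * (((1 : P) : N) : G)⁻¹ = a
        simp
      mul_smul := by
        intro g k a
        apply Subtype.ext
        show (((g * k : P) : N) : G) * (a : G) * (((g * k : P) : N) : G)⁻¹ =
          ((g : N) : G) * (((k : N) : G) * a * ((k : N) : G)⁻¹) * ((g : N) : G)⁻¹
        simp only [Subgroup.coe_mul]
        group }
  have hact2 : ∀ (g : P) (a : A), ((g • a : A) : G) = (g : N) * a * ((g : N) : G)⁻¹ := fun _ _ => rfl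
  have hmod := P.isPGroup'.card_modEq_card_fixedPoints A
  -- the fixed points form a subgroup
  let Fx : Subgroup A :=
    { carrier := MulAction.fixedPoints P A
      mul_mem' := by
        intro a b ha hb g
        apply Subtype.ext
        have h1 := congrArg Subtype.val (ha g)
        have h2 := congrArg Subtype.val (hb g)
        rw [hact2] at h1 h2
        rw [hact2, Subgroup.coe_mul]
        calc ((g : N) : G) * ((a : G) * b) * ((g : N) : G)⁻¹ =
            (((g : N) : G) * a * ((g : N) : G)⁻¹) * (((g : N) : G) * b * ((g : N) : G)⁻¹) := by group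
          _ = a * b := by rw [h1, h2]
      one_mem' := by
        intro g
        apply Subtype.ext
        rw [hact2]
        simp
      inv_mem' := by
        intro a ha g
        apply Subtype.ext
        have h1 := congrArg Subtype.val (ha g)
        rw [hact2] at h1
        rw [hact2, Subgroup.coe_inv]
        calc ((g : N) : G) * (a : G)⁻¹ * ((g : N) : G)⁻¹ = (((g : N) : G) * a * ((g : N) : G)⁻¹)⁻¹ := by group
          _ = (a : G)⁻¹ := by rw [h1] }
  have hFx : Nat.card Fx = Nat.card (MulAction.fixedPoints P A) := rfl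
  have hdvd := Subgroup.card_subgroup_dvd_card Fx
  rw [hA] at hdvd
  obtain ⟨t, ht, htc⟩ := (Nat.dvd_prime_pow Nat.prime_two).1 hdvd
  have htn : t < n := by
    rcases ht.lt_or_eq with h1 | h1
    · exact h1
    · exfalso
      apply hnP
      intro g hg
      have h2 : Fx = ⊤ := by
        apply Subgroup.eq_top_of_card_eq
        rw [htc, hA, h1]
      have h3 : (⟨d, hd⟩ : A) ∈ Fx := by rw [h2]; exact Subgroup.mem_top _
      have h4 := congrArg Subtype.val (h3 ⟨g, hg⟩)
      rw [MulAction.mem_stabilizer_iff]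
      exact h4
  rw [hA, ← hFx, htc] at hmod
  exact dvd_of_modEq hp hp2 htn hmod

include hF D h in
theorem prime_dvd {p : ℕ} (hp : p.Prime) (hp2 : p ≠ 2) (hpm : p ∣ mm φ w) : ∃ k, 1 ≤ k ∧ k ≤ 10 ∧ p ∣ 2 ^ k - 1 := by
  refine prime_dvd_aux (card_AG hF D h) (d_mem_AG D) (Δ := {x : G | x ∈ AG φ w ∧ IsConj d x}) (fun x => ?_) hp hp2 hpm
  constructor
  · rintro ⟨hx, hdx⟩
    exact trans_AG hF D h hx hdx
  · rintro ⟨g, hg, rfl⟩
    exact ⟨conj_mem' hg (d_mem_AG D), isConj_iff.2 ⟨g, rfl⟩⟩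

end Cfsg.Agent.UTh
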