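import Cfsg.Agent.UDbl.Cov
import Cfsg.Agent.Fi22.HBx
import Cfsg.Agent.Fi22.Ord

/-!
# The stabiliser of a totally isotropic plane in `SU_6(F4)`: a Sylow 2-subgroup
-/

set_option autoImplicit false
set_option linter.unusedSectionVars false

namespace Cfsg.Agent.UTh

open Finset Matrix Module Cfsg.Agent.Uni Cfsg.Agent.Fi22

variable {F : Type*} [Field F] [Fintype F]

theorem pow_four (hF : Fintype.card F = 2 ^ 2) (c : F) : (c ^ 2) ^ 2 = c := by
  have := FiniteField.pow_card c
  rw [hF] at this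
  rw [← pow_mul]
  exact this

/-- the expansion of a vector in a hyperbolic basis -/
theorem HB_expand (hF : Fintype.card F = 2 ^ 2) {w v : Fin 3 → Fin 6 → F} (h : HB w v) (x : Fin 6 → F) :
    x = hermForm 6 F 2 x (v 0) • w 0 + hermForm 6 F 2 x (v 1) • w 1 + hermForm 6 F 2 x (v 2) • w 2 +
      (hermForm 6 F 2 x (w 0) • v 0 + hermForm 6 F 2 x (w 1) • v 1 + hermForm 6 F 2 x (w 2) • v 2) := by
  rw [← sub_eq_zero]
  apply h.ext_zero hF
  · intro i
    simp only [hermForm_sub_left, hermForm_add_left, hermForm_smul_left, h.uu, h.vu hF, mul_zero, zero_add]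
    fin_cases i <;> simp
  · intro i
    simp only [hermForm_sub_left, hermForm_add_left, hermForm_smul_left, h.vv, h.uv, mul_zero, zero_add, add_zero]
    fin_cases i <;> simp

theorem HB_expand_w (hF : Fintype.card F = 2 ^ 2) {w v : Fin 3 → Fin 6 → F} (h : HB w v) {x : Fin 6 → F}
    (hx : ∀ i, hermForm 6 F 2 x (w i) = 0) :
    x = hermForm 6 F 2 x (v 0) • w 0 + hermForm 6 F 2 x (v 1) • w 1 + hermForm 6 F 2 x (v 2) • w 2 := by
  have := HB_expand hF h x
  rw [hx, hx, hx, zero_smul, zero_smul, zero_smul, add_zero, add_zero, add_zero] at this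
  exact this

theorem HB_act_ext (hF : Fintype.card F = 2 ^ 2) {w v : Fin 3 → Fin 6 → F} (h : HB w v) {g k : SU 6 F 2}
    (h1 : ∀ i, act g (w i) = act k (w i)) (h2 : ∀ i, act g (v i) = act k (v i)) : g = k := by
  apply act_ext
  intro x
  rw [HB_expand hF h x]
  simp only [act_add, act_smul, h1, h2]

/-! ### The pointwise stabiliser of the plane -/

/-- the pointwise stabiliser -/
def QW (w : Fin 3 → Fin 6 → F) : Subgroup (SU 6 F 2) where
  carrier := {g | ∀ i, act g (w i) = w i}
  mul_mem' := by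
    intro a b ha hb i
    rw [act_mul, hb, ha]
  one_mem' := fun i => act_one _
  inv_mem' := by
    intro a ha i
    have := act_inv_act a (w i)
    rwa [ha i] at this

theorem mem_QW {w : Fin 3 → Fin 6 → F} {g : SU 6 F 2} : g ∈ QW w ↔ ∀ i, act g (w i) = w i := Iff.rfl

section
variable (hF : Fintype.card F = 2 ^ 2) {w v : Fin 3 → Fin 6 → F} (h : HB w v)
include hF h

theorem QW_fix {g : SU 6 F 2} (hg : g ∈ QW w) {x : Fin 6 → F} (hx : ∀ i, hermForm 6 F 2 x (w i) = 0) :
    act g x = x := by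
  rw [HB_expand_w hF h hx]
  simp only [act_add, act_smul, hg 0, hg 1, hg 2]

theorem QW_perp {g : SU 6 F 2} (hg : g ∈ QW w) (x : Fin 6 → F) (i : Fin 3) :
    hermForm 6 F 2 (act g x + x) (w i) = 0 := by
  rw [hermForm_add_left]
  nth_rewrite 1 [← hg i]
  rw [act_form, add_self' hF]

theorem QW_mul_act {g k : SU 6 F 2} (hg : g ∈ QW w) (hk : k ∈ QW w) (x : Fin 6 → F) :
    act (g * k) x = act g x + act k x + x := by
  have h1 := QW_fix hF h hg (QW_perp hF h hk x)
  rw [act_add] at h1
  rw [act_mul]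
  have h2 := vadd_self' hF (act g x)
  calc act g (act k x) = act g (act k x) + (act g x + act g x) := by rw [h2, add_zero]
    _ = (act g (act k x) + act g x) + act g x := by abel
    _ = act g x + act k x + x := by rw [h1]; abel

theorem QW_comm {g k : SU 6 F 2} (hg : g ∈ QW w) (hk : k ∈ QW w) : g * k = k * g := by
  apply act_ext
  intro x
  rw [QW_mul_act hF h hg hk, QW_mul_act hF h hk hg, add_comm (act g x)]

theorem QW_sq {g : SU 6 F 2} (hg : g ∈ QW w) : g * g = 1 := by
  apply act_ext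
  intro x
  rw [QW_mul_act hF h hg hg, vadd_self' hF, zero_add, act_one]

/-- the image of `v j` -/
theorem QW_v {g : SU 6 F 2} (hg : g ∈ QW w) (j : Fin 3) :
    act g (v j) = v j + (hermForm 6 F 2 (act g (v j)) (v 0) • w 0 + hermForm 6 F 2 (act g (v j)) (v 1) • w 1 +
      hermForm 6 F 2 (act g (v j)) (v 2) • w 2) := by
  have h1 := HB_expand_w hF h (QW_perp hF h hg (v j))
  simp only [hermForm_add_left, h.vv, add_zero] at h1
  rw [← h1]
  have h2 := vadd_self' hF (v j)
  calc act g (v j) = act g (v j) + (v j + v j) := by rw [h2, add_zero]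
    _ = v j + (act g (v j) + v j) := by abel

theorem QW_symm {g : SU 6 F 2} (hg : g ∈ QW w) (i j : Fin 3) :
    hermForm 6 F 2 (act g (v i)) (v j) = hermForm 6 F 2 (act g (v j)) (v i) ^ 2 := by
  have h1 : hermForm 6 F 2 (act g (v i)) (v j) = hermForm 6 F 2 (v i) (act g (v j)) := by
    have h2 : g⁻¹ = g := inv_eq_of_mul_eq_one_left (QW_sq hF h hg)
    rw [act_form_left, h2]
  rw [h1, herm_flip hF]

theorem QW_ext {g k : SU 6 F 2} (hg : g ∈ QW w) (hk : k ∈ QW w)
    (h0 : hermForm 6 F 2 (act g (v 0)) (v 0) = hermForm 6 F 2 (act k (v 0)) (v 0))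
    (h1 : hermForm 6 F 2 (act g (v 1)) (v 1) = hermForm 6 F 2 (act k (v 1)) (v 1))
    (h2 : hermForm 6 F 2 (act g (v 2)) (v 2) = hermForm 6 F 2 (act k (v 2)) (v 2))
    (h01 : hermForm 6 F 2 (act g (v 0)) (v 1) = hermForm 6 F 2 (act k (v 0)) (v 1))
    (h02 : hermForm 6 F 2 (act g (v 0)) (v 2) = hermForm 6 F 2 (act k (v 0)) (v 2))
    (h12 : hermForm 6 F 2 (act g (v 1)) (v 2) = hermForm 6 F 2 (act k (v 1)) (v 2)) : g = k := by
  have sg := QW_symm hF h hg
  have sk := QW_symm hF h hk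
  refine HB_act_ext hF h (fun i => by rw [hg, hk]) (fun i => ?_)
  rw [QW_v hF h hg, QW_v hF h hk]
  fin_cases i
  · simp only [Fin.zero_eta]
    rw [h0, h01, h02]
  · simp only [Fin.mk_one]
    rw [h1, h12, sg 1 0, sk 1 0, h01]
  · simp only [Fin.reduceFinMk]
    rw [h2, sg 2 0, sk 2 0, sg 2 1, sk 2 1, h02, h12]

end

/-! ### Eichler elements -/

/-- the product of the transvections with centres `u`, `y`, `u + y` -/
noncomputable def ei (u y : Fin 6 → F) : SU 6 F 2 := tv u * tv y * tv (u + y)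

theorem ei_act (hF : Fintype.card F = 2 ^ 2) {u y : Fin 6 → F} (hu : hermForm 6 F 2 u u = 0)
    (hy : hermForm 6 F 2 y y = 0) (huy : hermForm 6 F 2 u y = 0) (x : Fin 6 → F) :
    act (ei u y) x = x + hermForm 6 F 2 x u • y + hermForm 6 F 2 x y • u := by
  have hyu : hermForm 6 F 2 y u = 0 := (hermForm_eq_zero_comm hF).1 huy
  have hs : hermForm 6 F 2 (u + y) (u + y) = 0 := by
    simp only [hermForm_add_left, hermForm_add_right hF, hu, hy, huy, hyu, add_zero]
  rw [ei, act_mul, act_mul, tv_act hF hs, tv_act hF hy, tv_act hF hu]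
  simp only [hermForm_add_left, hermForm_add_right hF, hermForm_smul_left, hu, hy, huy, hyu, mul_zero, add_zero]
  have h2 : (2 : F) = 0 := two_eq_zero' hF
  funext i
  simp only [Pi.add_apply, Pi.smul_apply, smul_eq_mul]
  linear_combination (hermForm 6 F 2 x u * u i + hermForm 6 F 2 x y * y i) * h2

/-- `1` or the transvection with centre `u` -/
noncomputable def te (e : F) (u : Fin 6 → F) : SU 6 F 2 := open Classical in if e = 0 then 1 else tv u

theorem te_act (hF : Fintype.card F = 2 ^ 2) {u : Fin 6 → F} (hu : hermForm 6 F 2 u u = 0) {e : F}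
    (he : e ^ 2 = e) (x : Fin 6 → F) : act (te e u) x = x + (e * hermForm 6 F 2 x u) • u := by
  rw [te]
  rcases sq_eq_self_iff'.1 he with rfl | rfl
  · rw [if_pos rfl, act_one, zero_mul, zero_smul, add_zero]
  · rw [if_neg one_ne_zero, tv_act hF hu, one_mul]

end Cfsg.Agent.UTh
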