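import Cfsg.Agent.UTh.Fus
import Cfsg.Agent.ZJ.Bridge

/-!
# The conjugates of `d` in the Thompson subgroup
-/

set_option autoImplicit false
set_option linter.unusedSectionVars false
set_option linter.unusedSimpArgs false

namespace Cfsg.Agent.UTh

open Finset Matrix Module Cfsg.Agent.Uni Cfsg.Agent.Fi22 Cfsg.Agent.UDbl

variable {G : Type*} [Group G] [Finite G] {d : G}
variable {F : Type*} [Field F] [Fintype F]
variable {φ : ↥(Subgroup.centralizer ({d} : Set G)) →* PSU 6 F 2}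
variable (hF : Fintype.card F = 2 ^ 2) (D : Dbl φ (zC d)) {w v : Fin 3 → Fin 6 → F} (h : HB w v)

theorem isConj_conj {d x : G} (y : G) (hx : IsConj d x) : IsConj d (y * x * y⁻¹) :=
  hx.trans (isConj_iff.2 ⟨y, rfl⟩)

theorem conj_inv_P : ∀ x y : ↥(Subgroup.centralizer ({d} : Set G)), IsConj d (x : G) →
    IsConj d ((y * x * y⁻¹ : ↥(Subgroup.centralizer ({d} : Set G))) : G) := by
  intro x y hx
  rw [Subgroup.coe_mul, Subgroup.coe_mul, Subgroup.coe_inv]
  exact isConj_conj _ hx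

include hF D h in
/-- some conjugate different from `d` lies in `A` -/
theorem exists_ne (hnwc : ∃ g : G, g * d * g⁻¹ ∈ Subgroup.centralizer ({d} : Set G) ∧ g * d * g⁻¹ ≠ d) :
    ∃ x ∈ AG φ w, x ≠ d ∧ IsConj d x := by
  obtain ⟨g, hg, hne⟩ := hnwc
  have hdd : d * d = 1 := congrArg Subtype.val D.sq
  set y : ↥(Subgroup.centralizer ({d} : Set G)) := ⟨g * d * g⁻¹, hg⟩ with hy
  have hyy : y * y = 1 := by
    apply Subtype.ext
    show g * d * g⁻¹ * (g * d * g⁻¹) = 1
    calc g * d * g⁻¹ * (g * d * g⁻¹) = g * (d * d) * g⁻¹ := by group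
      _ = 1 := by rw [hdd]; group
  obtain ⟨w', v', h', hyw⟩ := exists_AW_of_sq hF D (y := y) (by rw [← map_mul, hyy, map_one])
  obtain ⟨s, hs⟩ := AW_conj hF D h' h
  refine ⟨_, ⟨_, hs y hyw, rfl⟩, ?_, ?_⟩
  · intro h1
    apply hne
    have h2 : s * y * s⁻¹ = zC d := Subtype.ext h1
    have h3 : y = zC d := by
      calc y = s⁻¹ * (s * y * s⁻¹) * s := by group
        _ = s⁻¹ * (zC d * s) := by rw [h2, mul_assoc]
        _ = s⁻¹ * (s * zC d) := by rw [D.cen]
        _ = zC d := by group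
    exact congrArg Subtype.val h3
  · exact conj_inv_P y s (isConj_iff.2 ⟨g, rfl⟩)

include hF D h in
theorem two_le_mm (hnwc : ∃ g : G, g * d * g⁻¹ ∈ Subgroup.centralizer ({d} : Set G) ∧ g * d * g⁻¹ ≠ d) :
    2 ≤ mm φ w := by
  obtain ⟨x, hx, hne, hdx⟩ := exists_ne hF D h hnwc
  rw [mm]
  have h1 : ({d, x} : Set G) ⊆ {x : G | x ∈ AG φ w ∧ IsConj d x} := by
    intro y hy
    rw [Set.mem_insert_iff, Set.mem_singleton_iff] at hy
    rcases hy with rfl | rfl
    · exact ⟨d_mem_AG D, IsConj.refl _⟩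
    · exact ⟨hx, hdx⟩
  have h2 := Set.ncard_le_ncard h1
  rwa [Set.ncard_pair hne.symm] at h2

include hF D in
/-- `d` is not a square -/
theorem not_sq (y : G) : y * y ≠ d := by
  intro hy
  have hyC : y ∈ Subgroup.centralizer ({d} : Set G) := by
    rw [Subgroup.mem_centralizer_iff]
    intro x hx
    rw [Set.mem_singleton_iff.1 hx, ← hy, mul_assoc]
  set γ : ↥(Subgroup.centralizer ({d} : Set G)) := ⟨y, hyC⟩ with hγ
  have h1 : γ * γ = zC d := Subtype.ext hy
  obtain ⟨w', v', h', hyw⟩ := exists_AW_of_sq hF D (y := γ) (by rw [← map_mul, h1]; exact D.phz)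
  have h2 := (AW_abel hF h' D).2 γ hyw
  rw [h1] at h2
  exact D.ne h2

include hF D h in
/-- not every involution of `A` is conjugate to `d` -/
theorem not_all : ∃ x ∈ AG φ w, x ≠ 1 ∧ ¬ IsConj d x := by
  by_contra hcon
  push Not at hcon
  -- an element of `C` which is not of exponent two
  obtain ⟨y, hy, hyy⟩ : ∃ y ∈ SW φ w, y * y ≠ 1 := by
    by_contra hc2
    push Not at hc2
    have h1 := eq_AW hF h D le_rfl hc2 (by rw [card_SW hF h D]; norm_num)
    have h2 := card_SW hF h D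
    rw [h1, card_AW hF h D] at h2
    norm_num at h2
  have h1 : IsPGroup 2 (SW φ w) := IsPGroup.of_card (card_SW hF h D)
  obtain ⟨k, hk⟩ := h1 ⟨y, hy⟩
  have hk' : y ^ 2 ^ k = 1 := congrArg Subtype.val hk
  -- the last nontrivial square
  obtain ⟨m, hm, hmm⟩ : ∃ m, y ^ 2 ^ m ≠ 1 ∧ y ^ 2 ^ (m + 1) = 1 := by
    by_contra hc3
    push Not at hc3
    have : ∀ m, y ^ 2 ^ m ≠ 1 := by
      intro m
      induction m with
      | zero =>
        rw [pow_zero, pow_one]
        rintro rfl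
        exact hyy (mul_one 1)
      | succ m ih => exact hc3 m ih
    exact this k hk'
  have hm0 : m ≠ 0 := by
    rintro rfl
    rw [zero_add, pow_one, sq] at hmm
    exact hyy hmm
  obtain ⟨l, rfl⟩ := Nat.exists_eq_succ_of_ne_zero hm0
  set t := y ^ 2 ^ (l + 1) with ht
  set r := y ^ 2 ^ l with hr
  have hrt : r * r = t := by rw [hr, ht, ← pow_two, ← pow_mul, ← pow_succ]
  have htt : t * t = 1 := by rw [ht, ← pow_two, ← pow_mul, ← pow_succ]; exact hmm
  -- `t` is conjugate to `d`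
  obtain ⟨w', v', h', htw⟩ := exists_AW_of_sq hF D (y := t) (by rw [← map_mul, htt, map_one])
  obtain ⟨s, hs⟩ := AW_conj hF D h' h
  have h2 : IsConj d ((s * t * s⁻¹ : ↥(Subgroup.centralizer ({d} : Set G))) : G) := by
    refine hcon _ ⟨_, hs t htw, rfl⟩ ?_
    intro h3
    apply hm
    have h4 : s * t * s⁻¹ = 1 := Subtype.ext h3
    calc t = s⁻¹ * (s * t * s⁻¹) * s := by group
      _ = 1 := by rw [h4]; group
  obtain ⟨g, hg⟩ := isConj_iff.1 h2
  apply not_sq hF D (g⁻¹ * (s * r * s⁻¹ : ↥(Subgroup.centralizer ({d} : Set G))) * g)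
  have h5 : ((s * t * s⁻¹ : ↥(Subgroup.centralizer ({d} : Set G))) : G) =
      (s * r * s⁻¹ : ↥(Subgroup.centralizer ({d} : Set G))) * (s * r * s⁻¹ : ↥(Subgroup.centralizer ({d} : Set G))) := by
    rw [← hrt, ← Subgroup.coe_mul]
    congr 1
    group
  rw [h5] at hg
  calc g⁻¹ * ((s * r * s⁻¹ : ↥(Subgroup.centralizer ({d} : Set G))) : G) * g *
        (g⁻¹ * (s * r * s⁻¹ : ↥(Subgroup.centralizer ({d} : Set G))) * g) =
      g⁻¹ * (((s * r * s⁻¹ : ↥(Subgroup.centralizer ({d} : Set G))) : G) *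
        (s * r * s⁻¹ : ↥(Subgroup.centralizer ({d} : Set G)))) * g := by group
    _ = g⁻¹ * (g * d * g⁻¹) * g := by rw [hg]
    _ = d := by group

theorem small_primes {p : ℕ} (hp : ∃ k, 1 ≤ k ∧ k ≤ 10 ∧ p ∣ 2 ^ k - 1) (h1 : ∀ k, 1 ≤ k → k ≤ 10 → ¬ p ∣ 2 ^ k - 1) :
    False := by
  obtain ⟨k, h2, h3, h4⟩ := hp
  exact h1 k h2 h3 h4

include hF D h in
theorem no_prime {p : ℕ} (hp : p.Prime) (hp2 : p ≠ 2) (h1 : ∀ k, 1 ≤ k → k ≤ 10 → ¬ p ∣ 2 ^ k - 1) :
    ¬ p ∣ mm φ w := fun hpm => small_primes (prime_dvd hF D h hp hp2 hpm) h1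

include hF D h in
/-- **There are exactly 22 conjugates of `d` in `A`.** -/
theorem mm_eq (hnwc : ∃ g : G, g * d * g⁻¹ ∈ Subgroup.centralizer ({d} : Set G) ∧ g * d * g⁻¹ ≠ d)
    (hperf : commutator ↥(Subgroup.centralizer ({d} : Set G)) = ⊤) : mm φ w = 22 := by
  classical
  have hd1 : d ≠ 1 := fun h0 => D.ne (Subtype.ext h0)
  have hP : ∀ x y : ↥(Subgroup.centralizer ({d} : Set G)), IsConj d (x : G) →
    IsConj d ((y * x * y⁻¹ : ↥(Subgroup.centralizer ({d} : Set G))) : G) := conj_inv_P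
  obtain ⟨f, hf2, hfr, hfm⟩ := count_formula hF D h (P := fun x => IsConj d (x : G)) hP
  rw [← ncard_AG_eq] at hfm
  have hPz : ∀ x : ↥(Subgroup.centralizer ({d} : Set G)), ((x * zC d : ↥(Subgroup.centralizer ({d} : Set G))) : G) = x * d :=
    fun _ => rfl
  have hN : ∀ {x : ↥(Subgroup.centralizer ({d} : Set G))} {q : SU 6 F 2}, q ∈ QW w → pr q = φ x →
      f (rnk q) = (if IsConj d (x : G) then 1 else 0) + (if IsConj d ((x : G) * d) then 1 else 0) := by
    intro x q hq hx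
    rw [← hfr q hq, Nn_eq D hx.symm]
    rfl
  have hf0 : f 0 = 1 := by
    have h1 := hN (x := 1) (q := 1) (one_mem _) (by rw [map_one]; rfl)
    have h2 : rnk (1 : SU 6 F 2) = 0 := rnk_eq hF (RR_zero.2 rfl)
    rw [h2] at h1
    rw [h1]
    have h3 : ¬ IsConj d ((1 : ↥(Subgroup.centralizer ({d} : Set G))) : G) := fun h4 => hd1 (isConj_one_left.1 h4)
    have h5 : IsConj d (((1 : ↥(Subgroup.centralizer ({d} : Set G))) : G) * d) := by
      rw [Subgroup.coe_one, one_mul]
    rw [if_neg h3, if_pos h5]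
  rw [hf0] at hfm
  have h2m := two_le_mm hF D h hnwc
  have hle : mm φ w ≤ 1022 := by
    obtain ⟨x, hx, hx1, hnx⟩ := not_all hF D h
    have h1 : {x : G | x ∈ AG φ w ∧ IsConj d x} ⊆ (AG φ w : Set G) \ {1, x} := by
      rintro y ⟨hy, hdy⟩
      refine ⟨hy, ?_⟩
      rintro (rfl | rfl)
      · exact hd1 (isConj_one_left.1 hdy)
      · exact hnx hdy
    have h2 := Set.ncard_le_ncard h1
    rw [Set.ncard_sdiff, Set.ncard_pair hx1.symm] at h2
    · have h5 : (AG φ w : Set G).ncard = 2 ^ 10 := card_AG hF D h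
      rw [h5] at h2
      exact h2
    · intro y hy
      rcases hy with rfl | rfl
      · exact one_mem _
      · exact hx
  -- the case of the split cover
  have h512 : ¬ (f 1 = 1 ∧ f 2 = 1 ∧ f 3 = 1) := by
    rintro ⟨h1, h2, h3⟩
    have hall : ∀ (w' v' : Fin 3 → Fin 6 → F), HB w' v' → ∀ x ∈ AW φ w', (IsConj d (x : G) ∨ IsConj d ((x : G) * d)) ∧
        ¬ (IsConj d (x : G) ∧ IsConj d ((x : G) * d)) := by
      intro w' v' h' x hx
      obtain ⟨s, hs⟩ := AW_conj hF D h' h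
      obtain ⟨q, hq, hqx⟩ := hs x hx
      have h4 := hN hq hqx
      have h5 : f (rnk q) = 1 := by
        have h6 := (rnk_spec hF h hq).2
        interval_cases (rnk q)
        · exact hf0
        · exact h1
        · exact h2
        · exact h3
      rw [h5] at h4
      have e1 : IsConj d (x : G) ↔ IsConj d ((s * x * s⁻¹ : ↥(Subgroup.centralizer ({d} : Set G))) : G) := by
        constructor
        · exact hP x s
        · intro h7
          have h8 := hP _ s⁻¹ h7
          have e : s⁻¹ * (s * x * s⁻¹) * s⁻¹⁻¹ = x := by group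
          rwa [e] at h8
      have e2 : IsConj d ((x : G) * d) ↔
          IsConj d (((s * x * s⁻¹ : ↥(Subgroup.centralizer ({d} : Set G))) : G) * d) := by
        have e3 : ((s * x * s⁻¹ : ↥(Subgroup.centralizer ({d} : Set G))) : G) * d =
            (s * (x * zC d) * s⁻¹ : ↥(Subgroup.centralizer ({d} : Set G))) := by
          have : s * (x * zC d) * s⁻¹ = s * x * s⁻¹ * zC d := by
            calc s * (x * zC d) * s⁻¹ = s * x * (zC d * s⁻¹) := by group
              _ = s * x * (s⁻¹ * zC d) := by rw [D.cen]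
              _ = s * x * s⁻¹ * zC d := by group
          rw [this, hPz]
        rw [e3, ← hPz]
        constructor
        · exact hP _ s
        · intro h7
          have h8 := hP _ s⁻¹ h7
          have e : s⁻¹ * (s * (x * zC d) * s⁻¹) * s⁻¹⁻¹ = x * zC d := by group
          rwa [e] at h8
      rw [← e1, ← e2] at h4
      by_cases p1 : IsConj d (x : G)
      · rw [if_pos p1] at h4
        refine ⟨Or.inl p1, fun h9 => ?_⟩
        rw [if_pos h9.2] at h4
        omega
      · rw [if_neg p1] at h4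
        refine ⟨?_, fun h9 => p1 h9.1⟩
        by_contra h9
        push Not at h9
        rw [if_neg h9.2] at h4
        omega
    refine not_perfect_of_good hF D h (K := fun x => ¬ IsConj d (x : G)) ?_ ?_ ?_ ?_ hperf
    · intro x y hx hxy
      apply hx
      have h8 := hP _ y⁻¹ hxy
      have e : y⁻¹ * (y * x * y⁻¹) * y⁻¹⁻¹ = x := by group
      rwa [e] at h8
    · intro x hxx
      obtain ⟨w', v', h', hxw⟩ := exists_AW_of_sq hF D hxx
      have h4 := hall w' v' h' x hxw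
      simp only [hPz]
      tauto
    · intro h4
      exact hd1 (isConj_one_left.1 h4)
    · intro w' v' h' x hx y hy kx ky hxy
      refine sub_a hF D h' ?_ (x := (x : G)) (y := (y : G)) ⟨x, hx, rfl⟩ ⟨y, hy, rfl⟩ kx ky hxy
      rintro _ ⟨a, ha, rfl⟩
      exact (hall w' v' h' a ha).1
  -- all at least one
  have hA1 : (f 1 ≠ 0 ∧ f 2 ≠ 0 ∧ f 3 ≠ 0) → 1024 - mm φ w ∣ 2 ^ 10 := by
    rintro ⟨h1, h2, h3⟩
    refine dvd_of_sub_a hF D h hd1 ?_
    rintro _ ⟨x, ⟨q, hq, hqx⟩, rfl⟩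
    have h4 := hN hq hqx
    have h5 : f (rnk q) ≠ 0 := by
      have h6 := (rnk_spec hF h hq).2
      interval_cases (rnk q)
      · rw [hf0]; exact one_ne_zero
      · exact h1
      · exact h2
      · exact h3
    by_contra hcon
    push Not at hcon
    apply h5
    rw [h4]
    have c1 : ¬ IsConj d (x : G) := hcon.1
    have c2 : ¬ IsConj d ((x : G) * d) := hcon.2
    rw [if_neg c1, if_neg c2]
  -- none equal to one
  have hA2 : (f 1 ≠ 1 ∧ f 2 ≠ 1 ∧ f 3 ≠ 1) → mm φ w + 1 ∣ 2 ^ 10 := by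
    rintro ⟨h1, h2, h3⟩
    refine dvd_of_sub_b hF D h hd1 ?_
    rintro _ ⟨x, ⟨q, hq, hqx⟩, rfl⟩ hxd hdx
    have h4 := hN hq hqx
    have hdx' : IsConj d (x : G) := hdx
    have h5 : f (rnk q) ≠ 1 := by
      have h6 := (rnk_spec hF h hq)
      have h7 : rnk q ≠ 0 := by
        intro h8
        have h9 := h6.1
        rw [h8] at h9
        have h10 : φ x = 1 := by rw [← hqx, RR_zero.1 h9]; rfl
        rcases D.ker x h10 with rfl | rfl
        · exact hd1 (isConj_one_left.1 hdx)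
        · exact hxd rfl
      have h8 := h6.2
      interval_cases (rnk q)
      · exact absurd rfl h7
      · exact h1
      · exact h2
      · exact h3
    by_contra hcon
    apply h5
    have c2 : ¬ IsConj d ((x : G) * d) := hcon
    rw [h4, if_pos hdx', if_neg c2]
  -- prime divisors
  have P := fun {p : ℕ} (hp : p.Prime) (hp2 : p ≠ 2) (h1 : ∀ k, 1 ≤ k → k ≤ 10 → ¬ p ∣ 2 ^ k - 1) =>
    no_prime hF D h hp hp2 h1
  have dec : ∀ {p : ℕ}, (∀ k ∈ Finset.Icc 1 10, ¬ p ∣ 2 ^ k - 1) → ∀ k, 1 ≤ k → k ≤ 10 → ¬ p ∣ 2 ^ k - 1 :=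
    fun h1 k h2 h3 => h1 k (Finset.mem_Icc.2 ⟨h2, h3⟩)
  have p281 := P (p := 281) (by norm_num) (by norm_num) (dec (by decide))
  have p211 := P (p := 211) (by norm_num) (by norm_num) (dec (by decide))
  have p491 := P (p := 491) (by norm_num) (by norm_num) (dec (by decide))
  have p151 := P (p := 151) (by norm_num) (by norm_num) (dec (by decide))
  have p29 := P (p := 29) (by norm_num) (by norm_num) (dec (by decide))
  have p257 := P (p := 257) (by norm_num) (by norm_num) (dec (by decide))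
  have p701 := P (p := 701) (by norm_num) (by norm_num) (dec (by decide))
  have p97 := P (p := 97) (by norm_num) (by norm_num) (dec (by decide))
  have p13 := P (p := 13) (by norm_num) (by norm_num) (dec (by decide))
  have p19 := P (p := 19) (by norm_num) (by norm_num) (dec (by decide))
  have p23 := P (p := 23) (by norm_num) (by norm_num) (dec (by decide))
  have h1 := hf2 1
  have h2 := hf2 2
  have h3 := hf2 3
  obtain ⟨a, ha⟩ : ∃ a, a = f 1 := ⟨_, rfl⟩
  obtain ⟨b, hb⟩ : ∃ b, b = f 2 := ⟨_, rfl⟩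
  obtain ⟨c, hc⟩ : ∃ c, c = f 3 := ⟨_, rfl⟩
  rw [← ha, ← hb, ← hc] at hfm h512 hA1 hA2
  rw [← ha] at h1
  rw [← hb] at h2
  rw [← hc] at h3
  rw [hfm] at hA1 hA2 p281 p211 p491 p151 p29 p257 p701 p97 p13 p19 p23 h2m hle ⊢
  clear hfm hfr hN hf2 P dec
  interval_cases a <;> interval_cases b <;> interval_cases c <;>
    first
    | rfl
    | (exfalso; revert h2m hle h512 hA1 hA2 p281 p211 p491 p151 p29 p257 p701 p97 p13 p19 p23; decide)

end Cfsg.Agent.UTh
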