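import Cfsg.Agent.UTh.Tri

/-!
# Elementary abelian subgroups of the Sylow subgroup
-/

set_option autoImplicit false
set_option linter.unusedSectionVars false
set_option linter.unusedSimpArgs false

namespace Cfsg.Agent.UTh

open Finset Matrix Module Cfsg.Agent.Uni Cfsg.Agent.Fi22

variable {F : Type*} [Field F] [Fintype F]

/-- the prime field -/
abbrev FF (F : Type*) [Field F] := {x : F // x ^ 2 = x}

theorem card_F2 : Nat.card (FF F) = 2 := by
  classical
  rw [Nat.card_eq_fintype_card, Fintype.card_subtype]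
  have : (univ.filter fun x : F => x ^ 2 = x) = {0, 1} := by
    ext x
    rw [Finset.mem_filter, Finset.mem_insert, Finset.mem_singleton, sq_eq_self_iff']
    exact ⟨fun h => h.2, fun h => ⟨mem_univ _, h⟩⟩
  rw [this, Finset.card_pair zero_ne_one]

theorem card_F4 (hF : Fintype.card F = 2 ^ 2) : Nat.card F = 4 := by
  rw [Nat.card_eq_fintype_card, hF]; norm_num

/-- the hermitian form attached to an element -/
def hm (g : SU 6 F 2) (x y : Fin 6 → F) : F := hermForm 6 F 2 (act g x + x) y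

section
variable (hF : Fintype.card F = 2 ^ 2) {w v : Fin 3 → Fin 6 → F} (h : HB w v)

theorem hm_add_left (g : SU 6 F 2) (x x' y : Fin 6 → F) : hm g (x + x') y = hm g x y + hm g x' y := by
  simp only [hm, act_add, hermForm_add_left]
  ring

theorem hm_smul_left (g : SU 6 F 2) (c : F) (x y : Fin 6 → F) : hm g (c • x) y = c * hm g x y := by
  simp only [hm, act_smul, hermForm_add_left, hermForm_smul_left]
  ring

include hF in
theorem hm_add_right (g : SU 6 F 2) (x y y' : Fin 6 → F) : hm g x (y + y') = hm g x y + hm g x y' := by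
  simp only [hm, hermForm_add_right hF]

theorem hm_smul_right (g : SU 6 F 2) (c : F) (x y : Fin 6 → F) : hm g x (c • y) = c ^ 2 * hm g x y := by
  simp only [hm, hermForm_smul_right]

include hF h in
theorem hm_w_right {g : SU 6 F 2} (hg : g ∈ QW w) (x : Fin 6 → F) (i : Fin 3) : hm g x (w i) = 0 :=
  QW_perp hF h hg x i

include hF in
theorem hm_w_left {g : SU 6 F 2} (hg : g ∈ QW w) (y : Fin 6 → F) (i : Fin 3) : hm g (w i) y = 0 := by
  rw [hm, hg i, vadd_self' hF, hermForm_zero_left]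

include hF h in
theorem hm_symm {g : SU 6 F 2} (hg : g ∈ QW w) (x y : Fin 6 → F) : hm g x y = hm g y x ^ 2 := by
  have h2 : g⁻¹ = g := inv_eq_of_mul_eq_one_left (QW_sq hF h hg)
  rw [hm, hm, ← herm_flip hF, hermForm_add_left, hermForm_add_right hF, act_form_left, h2]

include hF h in
theorem hm_self {g : SU 6 F 2} (hg : g ∈ QW w) (x : Fin 6 → F) : hm g x x ^ 2 = hm g x x := (hm_symm hF h hg x x).symm

include h in
theorem hm_v (g : SU 6 F 2) (i j : Fin 3) : hm g (v i) (v j) = hermForm 6 F 2 (act g (v i)) (v j) := by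
  rw [hm, hermForm_add_left, h.vv, add_zero]

include hF in
theorem hm_inv {g c : SU 6 F 2} (hgc : g * c = c * g) (x y : Fin 6 → F) : hm g (act c x) (act c y) = hm g x y := by
  rw [hm, ← act_mul, hgc, act_mul, ← act_add, act_form, hm]

include hF h in
theorem hm_ext {g k : SU 6 F 2} (hg : g ∈ QW w) (hk : k ∈ QW w)
    (h0 : hm g (v 0) (v 0) = hm k (v 0) (v 0)) (h1 : hm g (v 1) (v 1) = hm k (v 1) (v 1))
    (h2 : hm g (v 2) (v 2) = hm k (v 2) (v 2)) (h01 : hm g (v 0) (v 1) = hm k (v 0) (v 1))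
    (h02 : hm g (v 0) (v 2) = hm k (v 0) (v 2)) (h12 : hm g (v 1) (v 2) = hm k (v 1) (v 2)) : g = k := by
  rw [hm_v h, hm_v h] at h0 h1 h2 h01 h02 h12
  exact QW_ext hF h hg hk h0 h1 h2 h01 h02 h12

include hF h in
theorem hm_mul {g k : SU 6 F 2} (hg : g ∈ QW w) (hk : k ∈ QW w) (x y : Fin 6 → F) :
    hm (g * k) x y = hm g x y + hm k x y := by
  rw [hm, hm, hm, QW_mul_act hF h hg hk, ← hermForm_add_left]
  congr 1
  abel

include hF h in
theorem hm_one (x y : Fin 6 → F) : hm (1 : SU 6 F 2) x y = 0 := by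
  rw [hm, act_one, vadd_self' hF, hermForm_zero_left]

/-! ### The order of the pointwise stabiliser -/

include hF h in
theorem te_mem (e : F) (he : e ^ 2 = e) (k : Fin 3) : te e (w k) ∈ QW w := by
  intro i
  rw [te_act hF (h.uu k k) he, h.uu, mul_zero, zero_smul, add_zero]

include hF h in
theorem te_hm (e : F) (he : e ^ 2 = e) (k i j : Fin 3) : hm (te e (w k)) (v i) (v j) =
    if i = k ∧ j = k then e else 0 := by
  rw [hm, te_act hF (h.uu k k) he]
  simp only [hermForm_add_left, hermForm_smul_left, h.vv, h.uv, h.vu hF]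
  by_cases hi : i = k <;> by_cases hj : j = k
  · simp [hi, hj]
  · simp [hi, hj, Ne.symm hj]
  · simp [hi, hj]
  · simp [hi, hj]

include hF h in
theorem eiw_act (a : F) (k l : Fin 3) (x : Fin 6 → F) : act (ei (w k) (a • w l)) x =
    x + hermForm 6 F 2 x (w k) • a • w l + (a ^ 2 * hermForm 6 F 2 x (w l)) • w k := by
  rw [ei_act hF (h.uu k k) (by rw [hermForm_smul_left, hermForm_smul_right, h.uu, mul_zero, mul_zero])
    (by rw [hermForm_smul_right, h.uu, mul_zero]), hermForm_smul_right]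

include hF h in
theorem eiw_mem (a : F) (k l : Fin 3) : ei (w k) (a • w l) ∈ QW w := by
  intro i
  rw [eiw_act hF h, h.uu, h.uu, mul_zero, zero_smul, zero_smul, add_zero, add_zero]

include hF h in
theorem eiw_hm (a : F) {k l i j : Fin 3} : hm (ei (w k) (a • w l)) (v i) (v j) =
    (if i = k ∧ j = l then a else 0) + (if i = l ∧ j = k then a ^ 2 else 0) := by
  rw [hm, eiw_act hF h]
  simp only [hermForm_add_left, hermForm_smul_left, h.vv, h.uv, h.vu hF]
  fin_cases k <;> fin_cases l <;> fin_cases i <;> fin_cases j <;> simp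

include hF h in
theorem card_QW : Nat.card (QW w) = 2 ^ 9 := by
  have e : QW w ≃ (FF F × FF F × FF F) × F × F × F := by
    refine Equiv.ofBijective (fun g => ((⟨hm g.1 (v 0) (v 0), hm_self hF h g.2 _⟩,
      ⟨hm g.1 (v 1) (v 1), hm_self hF h g.2 _⟩, ⟨hm g.1 (v 2) (v 2), hm_self hF h g.2 _⟩),
      hm g.1 (v 0) (v 1), hm g.1 (v 0) (v 2), hm g.1 (v 1) (v 2))) ⟨?_, ?_⟩
    · rintro ⟨g, hg⟩ ⟨k, hk⟩ hgk
      simp only [Prod.mk.injEq, Subtype.mk.injEq] at hgk
      obtain ⟨⟨a0, a1, a2⟩, a3, a4, a5⟩ := hgk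
      exact Subtype.ext (hm_ext hF h hg hk a0 a1 a2 a3 a4 a5)
    · rintro ⟨⟨⟨e0, f0⟩, ⟨e1, f1⟩, e2, f2⟩, a, b, c⟩
      have m0 := te_mem hF h e0 f0 0
      have m1 := te_mem hF h e1 f1 1
      have m2 := te_mem hF h e2 f2 2
      have m3 := eiw_mem hF h a 0 1
      have m4 := eiw_mem hF h b 0 2
      have m5 := eiw_mem hF h c 1 2
      refine ⟨⟨te e0 (w 0) * te e1 (w 1) * te e2 (w 2) * ei (w 0) (a • w 1) * ei (w 0) (b • w 2) *
        ei (w 1) (c • w 2), mul_mem (mul_mem (mul_mem (mul_mem (mul_mem m0 m1) m2) m3) m4) m5⟩, ?_⟩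
      have key : ∀ i j, hm (te e0 (w 0) * te e1 (w 1) * te e2 (w 2) * ei (w 0) (a • w 1) * ei (w 0) (b • w 2) *
        ei (w 1) (c • w 2)) (v i) (v j) = hm (te e0 (w 0)) (v i) (v j) + hm (te e1 (w 1)) (v i) (v j) +
        hm (te e2 (w 2)) (v i) (v j) + hm (ei (w 0) (a • w 1)) (v i) (v j) + hm (ei (w 0) (b • w 2)) (v i) (v j) +
        hm (ei (w 1) (c • w 2)) (v i) (v j) := by
        intro i j
        rw [hm_mul hF h (mul_mem (mul_mem (mul_mem (mul_mem m0 m1) m2) m3) m4) m5,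
          hm_mul hF h (mul_mem (mul_mem (mul_mem m0 m1) m2) m3) m4,
          hm_mul hF h (mul_mem (mul_mem m0 m1) m2) m3, hm_mul hF h (mul_mem m0 m1) m2, hm_mul hF h m0 m1]
      simp only [Prod.mk.injEq, Subtype.mk.injEq, key, te_hm hF h _ f0, te_hm hF h _ f1, te_hm hF h _ f2, eiw_hm hF h]
      refine ⟨⟨?_, ?_, ?_⟩, ?_, ?_, ?_⟩ <;> simp
  rw [Nat.card_congr e, Nat.card_prod, Nat.card_prod, Nat.card_prod, Nat.card_prod, Nat.card_prod, card_F2,
    card_F4 hF]
  norm_num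

include hF h in
theorem card_TT : Nat.card (TT w) = 2 ^ 15 := by
  rw [card_TT_eq hF h, card_QW hF h]
  norm_num

/-! ### Counting -/

theorem card_le_mul {G Y : Type*} [Group G] [Finite G] [Finite Y] (B K : Subgroup G) (f : G → Y)
    (hf : ∀ b ∈ B, ∀ b' ∈ B, f b = f b' → b⁻¹ * b' ∈ K) : Nat.card B ≤ Nat.card Y * Nat.card K := by
  classical
  let s : Y → G := fun y => if hy : ∃ b ∈ B, f b = y then hy.choose else 1
  have hs : ∀ b ∈ B, s (f b) ∈ B ∧ f (s (f b)) = f b := by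
    intro b hb
    have hy : ∃ b' ∈ B, f b' = f b := ⟨b, hb, rfl⟩
    have : s (f b) = hy.choose := dif_pos hy
    rw [this]
    exact hy.choose_spec
  let φ : B → Y × K := fun b => (f b, ⟨(s (f b))⁻¹ * b, hf _ (hs b b.2).1 _ b.2 (hs b b.2).2⟩)
  have hφ : Function.Injective φ := by
    intro b b' hbb
    have h1 := congrArg Prod.fst hbb
    have h2 := congrArg (fun p => (p.2 : G)) hbb
    simp only [φ] at h1 h2
    rw [h1] at h2
    exact Subtype.ext (mul_left_cancel h2)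
  rw [← Nat.card_prod]
  exact Nat.card_le_card_of_injective φ hφ

include hF h in
/-- the action of an involution of `TT` on the complement -/
theorem inv_act_v {c : SU 6 F 2} (hc : c ∈ TT w) (hcc : c * c = 1) :
    (∃ p0 p1 p2 : F, act c (v 0) = v 0 + al w v c ^ 2 • v 1 + ga w v c ^ 2 • v 2 + (p0 • w 0 + p1 • w 1 + p2 • w 2)) ∧
    (∃ p0 p1 p2 : F, act c (v 1) = v 1 + be w v c ^ 2 • v 2 + (p0 • w 0 + p1 • w 1 + p2 • w 2)) ∧
    (∃ p0 p1 p2 : F, act c (v 2) = v 2 + (p0 • w 0 + p1 • w 1 + p2 • w 2)) := by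
  have hci : c⁻¹ = c := inv_eq_of_mul_eq_one_left hcc
  have e : ∀ i j, hermForm 6 F 2 (act c (v i)) (w j) = hermForm 6 F 2 (v i) (act c (w j)) := by
    intro i j
    rw [act_form_left, hci]
  have c0 := TT_0 h hc
  have c1 := TT_1 h hc
  have c2 := TT_2 h hc
  have hvu := h.vu hF
  refine ⟨⟨hermForm 6 F 2 (act c (v 0)) (v 0), hermForm 6 F 2 (act c (v 0)) (v 1),
    hermForm 6 F 2 (act c (v 0)) (v 2), ?_⟩, ⟨hermForm 6 F 2 (act c (v 1)) (v 0),
    hermForm 6 F 2 (act c (v 1)) (v 1), hermForm 6 F 2 (act c (v 1)) (v 2), ?_⟩,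
    ⟨hermForm 6 F 2 (act c (v 2)) (v 0), hermForm 6 F 2 (act c (v 2)) (v 1),
    hermForm 6 F 2 (act c (v 2)) (v 2), ?_⟩⟩
  · have h1 := HB_expand hF h (act c (v 0))
    rw [e, e, e, c0, c1, c2] at h1
    simp only [hermForm_add_right hF, hermForm_smul_right, hvu] at h1
    rw [add_comm] at h1
    simpa using h1
  · have h1 := HB_expand hF h (act c (v 1))
    rw [e, e, e, c0, c1, c2] at h1
    simp only [hermForm_add_right hF, hermForm_smul_right, hvu] at h1
    rw [add_comm] at h1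
    simpa using h1
  · have h1 := HB_expand hF h (act c (v 2))
    rw [e, e, e, c0, c1, c2] at h1
    simp only [hermForm_add_right hF, hermForm_smul_right, hvu] at h1
    rw [add_comm] at h1
    simpa using h1

include hF h in
/-- the constraints on an element commuting with an involution of `TT` -/
theorem constraints {c g : SU 6 F 2} (hc : c ∈ TT w) (hcc : c * c = 1) (hg : g ∈ QW w) (hgc : g * c = c * g) :
    be w v c * hm g (v 2) (v 2) = 0 ∧
    al w v c ^ 2 * hm g (v 1) (v 2) = ga w v c ^ 2 * hm g (v 2) (v 2) ∧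
    be w v c * hm g (v 0) (v 2) + al w v c ^ 2 * hm g (v 1) (v 1) + al w v c ^ 2 * be w v c * hm g (v 1) (v 2) +
      ga w v c ^ 2 * hm g (v 2) (v 1) + ga w v c ^ 2 * be w v c * hm g (v 2) (v 2) = 0 ∧
    (al w v c = 0 → (ga w v c * hm g (v 0) (v 2)) + (ga w v c * hm g (v 0) (v 2)) ^ 2 +
      ga w v c ^ 3 * hm g (v 2) (v 2) = 0) := by
  obtain ⟨⟨p0, p1, p2, h0⟩, ⟨q0, q1, q2, h1⟩, ⟨r0, r1, r2, h2⟩⟩ := inv_act_v hF h hc hcc
  have R := hm_w_right hF h hg
  have L := hm_w_left hF hg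
  have h2' : (2 : F) = 0 := two_eq_zero' hF
  have four := pow_four hF (F := F)
  set a := al w v c
  set b := be w v c
  set d := ga w v c
  have k12 := hm_inv hF hgc (v 1) (v 2)
  have k02 := hm_inv hF hgc (v 0) (v 2)
  have k01 := hm_inv hF hgc (v 0) (v 1)
  have k00 := hm_inv hF hgc (v 0) (v 0)
  rw [h1, h2] at k12
  rw [h0, h2] at k02
  rw [h0, h1] at k01
  rw [h0] at k00
  simp only [hm_add_left, hm_add_right hF, hm_smul_left, hm_smul_right, R, L, mul_zero, add_zero, zero_add,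
    four] at k12 k02 k01 k00
  have s20 := hm_symm hF h hg (v 2) (v 0)
  set x00 := hm g (v 0) (v 0)
  set x01 := hm g (v 0) (v 1)
  set x02 := hm g (v 0) (v 2)
  set x10 := hm g (v 1) (v 0)
  set x11 := hm g (v 1) (v 1)
  set x12 := hm g (v 1) (v 2)
  set x20 := hm g (v 2) (v 0)
  set x21 := hm g (v 2) (v 1)
  set x22 := hm g (v 2) (v 2)
  have j1 : b ^ 2 * x22 = 0 := by linear_combination k12
  have j2 : b * x22 = 0 := by
    rcases mul_eq_zero.1 j1 with h3 | h3
    · rw [pow_eq_zero_iff two_ne_zero] at h3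
      rw [h3, zero_mul]
    · rw [h3, mul_zero]
  refine ⟨j2, ?_, ?_, ?_⟩
  · linear_combination k02 - d ^ 2 * x22 * h2'
  · linear_combination k01
  · intro ha
    rw [ha] at k00
    rw [s20] at k00
    linear_combination k00

theorem card_le_8 {K : Subgroup (SU 6 F 2)} {Y : Type*} [Finite Y] (f : K → Y) (hf : Function.Injective f)
    {n : ℕ} (hn : Nat.card Y ≤ n) : Nat.card K ≤ n := (Nat.card_le_card_of_injective f hf).trans hn

include hF h in
/-- Elementary abelian subgroups of `TT` are small or contained in `QW`. -/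
theorem le_QW_or_card_le {B : Subgroup (SU 6 F 2)} (hB : B ≤ TT w) (hsq : ∀ b ∈ B, b * b = 1) :
    B ≤ QW w ∨ Nat.card B ≤ 2 ^ 8 := by
  have hcomm : ∀ b ∈ B, ∀ c ∈ B, b * c = c * b := by
    intro b hb c hc
    have h1 := hsq _ (mul_mem hb hc)
    have h2 : (b * c)⁻¹ = b * c := inv_eq_of_mul_eq_one_left h1
    have h3 : b⁻¹ = b := inv_eq_of_mul_eq_one_left (hsq b hb)
    have h4 : c⁻¹ = c := inv_eq_of_mul_eq_one_left (hsq c hc)
    rw [← h2, _root_.mul_inv_rev, h3, h4]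
  have hab : ∀ b ∈ B, al w v b * be w v b = 0 := by
    intro b hb
    have h1 := (TT_mul h (v := v) (hB hb) (hB hb)).2.2
    rw [hsq b hb] at h1
    have h0 := (QW_coord h (one_mem (QW w))).2.2
    rw [h0] at h1
    have h2 : (2 : F) = 0 := two_eq_zero' hF
    linear_combination -h1 - ga w v b * h2
  have habb : ∀ b ∈ B, ∀ c ∈ B, al w v b * be w v c = al w v c * be w v b := by
    intro b hb c hc
    have h1 := (TT_mul h (v := v) (hB hb) (hB hc)).2.2
    have h3 := (TT_mul h (v := v) (hB hc) (hB hb)).2.2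
    rw [hcomm b hb c hc, h3] at h1
    linear_combination -h1
  set K : Subgroup (SU 6 F 2) := B ⊓ QW w with hK
  have hKc : ∀ c ∈ B, ∀ g ∈ K, g * c = c * g := fun c hc g hg => hcomm g hg.1 c hc
  have C := fun {c : SU 6 F 2} (hc : c ∈ B) {g : SU 6 F 2} (hg : g ∈ K) =>
    constraints hF h (hB hc) (hsq c hc) hg.2 (hKc c hc g hg)
  have S : ∀ g ∈ K, ∀ i, hm g (v i) (v i) ^ 2 = hm g (v i) (v i) := fun g hg i => hm_self hF h hg.2 _
  have symm : ∀ g ∈ K, hm g (v 2) (v 1) = hm g (v 1) (v 2) ^ 2 := fun g hg => hm_symm hF h hg.2 _ _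
  have inv_al : ∀ b ∈ B, ∀ c ∈ B, al w v (b⁻¹ * c) = al w v b + al w v c ∧ be w v (b⁻¹ * c) = be w v b + be w v c := by
    intro b hb c hc
    have h3 : b⁻¹ = b := inv_eq_of_mul_eq_one_left (hsq b hb)
    rw [h3]
    exact ⟨(TT_mul h (hB hb) (hB hc)).1, (TT_mul h (hB hb) (hB hc)).2.1⟩
  have sq0 : ∀ x : F, x ^ 2 = 0 → x = 0 := fun x hx => (pow_eq_zero_iff two_ne_zero).1 hx
  have hT : Nat.card (FF F) = 2 := card_F2
  have hF4 := card_F4 hF
  -- products
  by_cases hb0 : ∃ b ∈ B, be w v b ≠ 0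
  · obtain ⟨b, hb, hbb⟩ := hb0
    have ha : ∀ c ∈ B, al w v c = 0 := by
      have h1 : al w v b = 0 := (mul_eq_zero.1 (hab b hb)).resolve_right hbb
      intro c hc
      have h2 := habb b hb c hc
      rw [h1, zero_mul] at h2
      exact (mul_eq_zero.1 h2.symm).resolve_right hbb
    right
    by_cases hc0 : ∃ c ∈ B, be w v c = 0 ∧ ga w v c ≠ 0
    · obtain ⟨c, hc, hcb, hcg⟩ := hc0
      have hf : ∀ x ∈ B, ∀ y ∈ B, (be w v x, ga w v x) = (be w v y, ga w v y) → x⁻¹ * y ∈ K := by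
        intro x hx y hy hxy
        rw [Prod.mk.injEq] at hxy
        exact ⟨B.mul_mem (B.inv_mem hx) hy, inv_mul_mem_QW h (hB hx) (hB hy) (by rw [ha x hx, ha y hy]) hxy.1 hxy.2⟩
      have h1 := card_le_mul B K (fun x => (be w v x, ga w v x)) hf
      have z : ∀ g ∈ K, hm g (v 2) (v 2) = 0 ∧ hm g (v 1) (v 2) = 0 ∧ hm g (v 0) (v 2) = 0 := by
        intro g hg
        obtain ⟨-, c2, c3, -⟩ := C hc hg
        rw [ha c hc, zero_pow two_ne_zero, zero_mul] at c2
        have z1 : hm g (v 2) (v 2) = 0 := (mul_eq_zero.1 c2.symm).resolve_left (pow_ne_zero 2 hcg)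
        rw [ha c hc, z1, hcb] at c3
        have z2 : hm g (v 2) (v 1) = 0 := by
          have : ga w v c ^ 2 * hm g (v 2) (v 1) = 0 := by linear_combination c3
          exact (mul_eq_zero.1 this).resolve_left (pow_ne_zero 2 hcg)
        have z3 : hm g (v 1) (v 2) = 0 := by
          rw [symm g hg] at z2
          exact sq0 _ z2
        obtain ⟨-, -, b3, -⟩ := C hb hg
        rw [ha b hb, z1, z2, z3] at b3
        have z4 : be w v b * hm g (v 0) (v 2) = 0 := by linear_combination b3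
        exact ⟨z1, z3, (mul_eq_zero.1 z4).resolve_left hbb⟩
      have h2 : Nat.card K ≤ Nat.card (FF F × FF F × F) := by
        refine Nat.card_le_card_of_injective (fun g : K => ((⟨hm g.1 (v 0) (v 0), S g.1 g.2 0⟩,
          ⟨hm g.1 (v 1) (v 1), S g.1 g.2 1⟩, hm g.1 (v 0) (v 1)) : FF F × FF F × F)) ?_
        rintro ⟨g, hg⟩ ⟨k, hk⟩ hgk
        simp only [Prod.mk.injEq, Subtype.mk.injEq] at hgk
        obtain ⟨a0, a1, a2⟩ := hgk
        obtain ⟨z1, z2, z3⟩ := z g hg
        obtain ⟨y1, y2, y3⟩ := z k hk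
        exact Subtype.ext (hm_ext hF h hg.2 hk.2 a0 a1 (by rw [z1, y1]) a2 (by rw [z3, y3]) (by rw [z2, y2]))
      rw [Nat.card_prod, Nat.card_prod, hT, hF4] at h2
      rw [Nat.card_prod, hF4] at h1
      calc Nat.card B ≤ 4 * 4 * Nat.card K := h1
        _ ≤ 4 * 4 * (2 * (2 * 4)) := Nat.mul_le_mul_left _ h2
        _ = 2 ^ 8 := by norm_num
    · push Not at hc0
      have hf : ∀ x ∈ B, ∀ y ∈ B, be w v x = be w v y → x⁻¹ * y ∈ K := by
        intro x hx y hy hxy
        have hm1 : x⁻¹ * y ∈ B := mul_mem (inv_mem hx) hy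
        have e1 : be w v (x⁻¹ * y) = 0 := by rw [(inv_al x hx y hy).2, hxy, add_self' hF]
        exact ⟨hm1, mem_QW_of_coord h (hB hm1) (ha _ hm1) e1 (hc0 _ hm1 e1)⟩
      have h1 := card_le_mul B K (fun x => be w v x) hf
      have z : ∀ g ∈ K, hm g (v 2) (v 2) = 0 ∧ hm g (v 0) (v 2) = (be w v b)⁻¹ * (ga w v b ^ 2 * hm g (v 1) (v 2) ^ 2) := by
        intro g hg
        obtain ⟨b1, b2, b3, -⟩ := C hb hg
        have z1 : hm g (v 2) (v 2) = 0 := (mul_eq_zero.1 b1).resolve_left hbb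
        refine ⟨z1, ?_⟩
        rw [ha b hb, z1, symm g hg] at b3
        have h2 : (2 : F) = 0 := two_eq_zero' hF
        rw [eq_inv_mul_iff_mul_eq₀ hbb]
        linear_combination b3 - ga w v b ^ 2 * hm g (v 1) (v 2) ^ 2 * h2
      have h2 : Nat.card K ≤ Nat.card (FF F × FF F × F × F) := by
        refine Nat.card_le_card_of_injective (fun g : K => ((⟨hm g.1 (v 0) (v 0), S g.1 g.2 0⟩,
          ⟨hm g.1 (v 1) (v 1), S g.1 g.2 1⟩, hm g.1 (v 0) (v 1), hm g.1 (v 1) (v 2)) : FF F × FF F × F × F)) ?_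
        rintro ⟨g, hg⟩ ⟨k, hk⟩ hgk
        simp only [Prod.mk.injEq, Subtype.mk.injEq] at hgk
        obtain ⟨a0, a1, a2, a3⟩ := hgk
        obtain ⟨z1, z2⟩ := z g hg
        obtain ⟨y1, y2⟩ := z k hk
        exact Subtype.ext (hm_ext hF h hg.2 hk.2 a0 a1 (by rw [z1, y1]) a2 (by rw [z2, y2, a3]) a3)
      rw [Nat.card_prod, Nat.card_prod, Nat.card_prod, hT, hF4] at h2
      rw [hF4] at h1
      calc Nat.card B ≤ 4 * Nat.card K := h1
        _ ≤ 4 * (2 * (2 * (4 * 4))) := Nat.mul_le_mul_left _ h2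
        _ = 2 ^ 8 := by norm_num
  · push Not at hb0
    by_cases ha0 : ∃ b ∈ B, al w v b ≠ 0
    · obtain ⟨b, hb, hba⟩ := ha0
      right
      by_cases hc0 : ∃ c ∈ B, al w v c = 0 ∧ ga w v c ≠ 0
      · obtain ⟨c, hc, hca, hcg⟩ := hc0
        have hf : ∀ x ∈ B, ∀ y ∈ B, (al w v x, ga w v x) = (al w v y, ga w v y) → x⁻¹ * y ∈ K := by
          intro x hx y hy hxy
          rw [Prod.mk.injEq] at hxy
          exact ⟨B.mul_mem (B.inv_mem hx) hy, inv_mul_mem_QW h (hB hx) (hB hy) hxy.1 (by rw [hb0 x hx, hb0 y hy]) hxy.2⟩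
        have h1 := card_le_mul B K (fun x => (al w v x, ga w v x)) hf
        have z : ∀ g ∈ K, hm g (v 2) (v 2) = 0 ∧ hm g (v 1) (v 2) = 0 ∧ hm g (v 1) (v 1) = 0 ∧
            (ga w v c * hm g (v 0) (v 2)) ^ 2 = ga w v c * hm g (v 0) (v 2) := by
          intro g hg
          obtain ⟨-, c2, c3, c4⟩ := C hc hg
          have c4' := c4 hca
          rw [hca, zero_pow two_ne_zero, zero_mul] at c2
          have z1 : hm g (v 2) (v 2) = 0 := (mul_eq_zero.1 c2.symm).resolve_left (pow_ne_zero 2 hcg)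
          obtain ⟨-, b2, b3, -⟩ := C hb hg
          rw [z1, mul_zero] at b2
          have z2 : hm g (v 1) (v 2) = 0 := (mul_eq_zero.1 b2).resolve_left (pow_ne_zero 2 hba)
          rw [symm g hg, z1, z2, hb0 b hb] at b3
          have z3 : al w v b ^ 2 * hm g (v 1) (v 1) = 0 := by linear_combination b3
          refine ⟨z1, z2, (mul_eq_zero.1 z3).resolve_left (pow_ne_zero 2 hba), ?_⟩
          rw [z1, mul_zero, add_zero] at c4'
          have h2 : (2 : F) = 0 := two_eq_zero' hF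
          linear_combination c4' - ga w v c * hm g (v 0) (v 2) * h2
        have h2 : Nat.card K ≤ Nat.card (FF F × F × FF F) := by
          refine Nat.card_le_card_of_injective (fun g : K => ((⟨hm g.1 (v 0) (v 0), S g.1 g.2 0⟩,
            hm g.1 (v 0) (v 1), ⟨ga w v c * hm g.1 (v 0) (v 2), (z g.1 g.2).2.2.2⟩) : FF F × F × FF F)) ?_
          rintro ⟨g, hg⟩ ⟨k, hk⟩ hgk
          simp only [Prod.mk.injEq, Subtype.mk.injEq] at hgk
          obtain ⟨a0, a1, a2⟩ := hgk
          obtain ⟨z1, z2, z3, -⟩ := z g hg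
          obtain ⟨y1, y2, y3, -⟩ := z k hk
          exact Subtype.ext (hm_ext hF h hg.2 hk.2 a0 (by rw [z3, y3]) (by rw [z1, y1]) a1
            (mul_left_cancel₀ hcg a2) (by rw [z2, y2]))
        rw [Nat.card_prod, Nat.card_prod, hT, hF4] at h2
        rw [Nat.card_prod, hF4] at h1
        calc Nat.card B ≤ 4 * 4 * Nat.card K := h1
          _ ≤ 4 * 4 * (2 * (4 * 2)) := Nat.mul_le_mul_left _ h2
          _ = 2 ^ 8 := by norm_num
      · push Not at hc0
        have hf : ∀ x ∈ B, ∀ y ∈ B, al w v x = al w v y → x⁻¹ * y ∈ K := by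
          intro x hx y hy hxy
          have hm1 : x⁻¹ * y ∈ B := mul_mem (inv_mem hx) hy
          have e1 : al w v (x⁻¹ * y) = 0 := by rw [(inv_al x hx y hy).1, hxy, add_self' hF]
          exact ⟨hm1, mem_QW_of_coord h (hB hm1) e1 (hb0 _ hm1) (hc0 _ hm1 e1)⟩
        have h1 := card_le_mul B K (fun x => al w v x) hf
        have hba2 : al w v b ^ 2 ≠ 0 := pow_ne_zero 2 hba
        have z : ∀ g ∈ K, hm g (v 1) (v 2) = (al w v b ^ 2)⁻¹ * (ga w v b ^ 2 * hm g (v 2) (v 2)) ∧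
            hm g (v 1) (v 1) = (al w v b ^ 2)⁻¹ * (ga w v b ^ 2 * hm g (v 1) (v 2) ^ 2) := by
          intro g hg
          obtain ⟨-, b2, b3, -⟩ := C hb hg
          rw [eq_inv_mul_iff_mul_eq₀ hba2, eq_inv_mul_iff_mul_eq₀ hba2]
          refine ⟨b2, ?_⟩
          rw [hb0 b hb, symm g hg] at b3
          have h2 : (2 : F) = 0 := two_eq_zero' hF
          linear_combination b3 - ga w v b ^ 2 * hm g (v 1) (v 2) ^ 2 * h2
        have h2 : Nat.card K ≤ Nat.card (FF F × FF F × F × F) := by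
          refine Nat.card_le_card_of_injective (fun g : K => ((⟨hm g.1 (v 0) (v 0), S g.1 g.2 0⟩,
            ⟨hm g.1 (v 2) (v 2), S g.1 g.2 2⟩, hm g.1 (v 0) (v 1), hm g.1 (v 0) (v 2)) : FF F × FF F × F × F)) ?_
          rintro ⟨g, hg⟩ ⟨k, hk⟩ hgk
          simp only [Prod.mk.injEq, Subtype.mk.injEq] at hgk
          obtain ⟨a0, a1, a2, a3⟩ := hgk
          obtain ⟨z1, z2⟩ := z g hg
          obtain ⟨y1, y2⟩ := z k hk
          have e12 : hm g (v 1) (v 2) = hm k (v 1) (v 2) := by rw [z1, y1, a1]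
          exact Subtype.ext (hm_ext hF h hg.2 hk.2 a0 (by rw [z2, y2, e12]) a1 a2 a3 e12)
        rw [Nat.card_prod, Nat.card_prod, Nat.card_prod, hT, hF4] at h2
        rw [hF4] at h1
        calc Nat.card B ≤ 4 * Nat.card K := h1
          _ ≤ 4 * (2 * (2 * (4 * 4))) := Nat.mul_le_mul_left _ h2
          _ = 2 ^ 8 := by norm_num
    · push Not at ha0
      by_cases hg0 : ∃ c ∈ B, ga w v c ≠ 0
      · obtain ⟨c, hc, hcg⟩ := hg0
        right
        have hf : ∀ x ∈ B, ∀ y ∈ B, ga w v x = ga w v y → x⁻¹ * y ∈ K := by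
          intro x hx y hy hxy
          exact ⟨B.mul_mem (B.inv_mem hx) hy, inv_mul_mem_QW h (hB hx) (hB hy) (by rw [ha0 x hx, ha0 y hy])
            (by rw [hb0 x hx, hb0 y hy]) hxy⟩
        have h1 := card_le_mul B K (fun x => ga w v x) hf
        have z : ∀ g ∈ K, hm g (v 2) (v 2) = 0 ∧ hm g (v 1) (v 2) = 0 := by
          intro g hg
          obtain ⟨-, c2, c3, -⟩ := C hc hg
          rw [ha0 c hc, zero_pow two_ne_zero, zero_mul] at c2
          have z1 : hm g (v 2) (v 2) = 0 := (mul_eq_zero.1 c2.symm).resolve_left (pow_ne_zero 2 hcg)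
          rw [ha0 c hc, z1, hb0 c hc] at c3
          have z2 : hm g (v 2) (v 1) = 0 := by
            have : ga w v c ^ 2 * hm g (v 2) (v 1) = 0 := by linear_combination c3
            exact (mul_eq_zero.1 this).resolve_left (pow_ne_zero 2 hcg)
          rw [symm g hg] at z2
          exact ⟨z1, sq0 _ z2⟩
        have h2 : Nat.card K ≤ Nat.card (FF F × FF F × F × F) := by
          refine Nat.card_le_card_of_injective (fun g : K => ((⟨hm g.1 (v 0) (v 0), S g.1 g.2 0⟩,
            ⟨hm g.1 (v 1) (v 1), S g.1 g.2 1⟩, hm g.1 (v 0) (v 1), hm g.1 (v 0) (v 2)) : FF F × FF F × F × F)) ?_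
          rintro ⟨g, hg⟩ ⟨k, hk⟩ hgk
          simp only [Prod.mk.injEq, Subtype.mk.injEq] at hgk
          obtain ⟨a0, a1, a2, a3⟩ := hgk
          obtain ⟨z1, z2⟩ := z g hg
          obtain ⟨y1, y2⟩ := z k hk
          exact Subtype.ext (hm_ext hF h hg.2 hk.2 a0 a1 (by rw [z1, y1]) a2 a3 (by rw [z2, y2]))
        rw [Nat.card_prod, Nat.card_prod, Nat.card_prod, hT, hF4] at h2
        rw [hF4] at h1
        calc Nat.card B ≤ 4 * Nat.card K := h1
          _ ≤ 4 * (2 * (2 * (4 * 4))) := Nat.mul_le_mul_left _ h2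
          _ = 2 ^ 8 := by norm_num
      · push Not at hg0
        left
        intro b hb
        exact mem_QW_of_coord h (hB hb) (ha0 b hb) (hb0 b hb) (hg0 b hb)

include hF h in
theorem eq_QW {B : Subgroup (SU 6 F 2)} (hB : B ≤ TT w) (hsq : ∀ b ∈ B, b * b = 1) (hc : 2 ^ 9 ≤ Nat.card B) :
    B = QW w := by
  rcases le_QW_or_card_le hF h hB hsq with h1 | h1
  · exact Subgroup.eq_of_le_of_card_ge h1 (by rw [card_QW hF h]; exact hc)
  · exact absurd (hc.trans h1) (by norm_num)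

end

end Cfsg.Agent.UTh
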