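import Cfsg.Agent.UTh.Conj

/-!
# A compatible choice of lifts of involutions splits the cover
-/

set_option autoImplicit false
set_option linter.unusedSectionVars false
set_option linter.unusedSimpArgs false

namespace Cfsg.Agent.UTh

open Finset Matrix Module Cfsg.Agent.Uni Cfsg.Agent.Fi22 Cfsg.Agent.UDbl

section transfer

variable {H : Type*} [Group H] [Finite H] {z : H}

/-- If a subgroup `S` of odd index contains a complement `S0` to the central involution `z`, then `H` is not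
perfect. -/
theorem not_perfect_of_split (hz : ∀ x, z * x = x * z) (hzz : z * z = 1) {S S0 : Subgroup H} (hzS : z ∈ S)
    (hS0 : S0 ≤ S) (hz0 : z ∉ S0) (hall : ∀ s ∈ S, s ∈ S0 ∨ s * z ∈ S0) (hodd : Odd S.index) :
    commutator H ≠ ⊤ := by
  classical
  intro hperf
  have key : ∀ s ∈ S, ∀ t ∈ S, (s * t ∈ S0 ↔ (s ∈ S0 ↔ t ∈ S0)) := by
    intro s hs t ht
    have hns : ∀ s ∈ S, s ∉ S0 → s * z ∈ S0 := fun s hs h => (hall s hs).resolve_left h
    by_cases h1 : s ∈ S0 <;> by_cases h2 : t ∈ S0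
    · simp [h1, h2, mul_mem h1 h2]
    · have : s * t ∉ S0 := fun h3 => h2 (by
        have := mul_mem (inv_mem h1) h3
        rwa [inv_mul_cancel_left] at this)
      simp [h1, h2, this]
    · have : s * t ∉ S0 := fun h3 => h1 (by
        have := mul_mem h3 (inv_mem h2)
        rwa [mul_inv_cancel_right] at this)
      simp [h1, h2, this]
    · have h3 := mul_mem (hns s hs h1) (hns t ht h2)
      have h4 : s * z * (t * z) = s * t := by
        calc s * z * (t * z) = s * (z * t) * z := by simp only [mul_assoc]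
          _ = s * (t * z) * z := by rw [hz]
          _ = s * t * (z * z) := by simp only [mul_assoc]
          _ = s * t := by rw [hzz, mul_one]
      rw [h4] at h3
      simp [h1, h2, h3]
  let θ : S →* ℤˣ :=
    { toFun := fun s => if (s : H) ∈ S0 then 1 else -1
      map_one' := by simp
      map_mul' := by
        intro s t
        have h1 := key s s.2 t t.2
        show (if (s : H) * t ∈ S0 then (1 : ℤˣ) else -1) = _
        by_cases h2 : (s : H) ∈ S0 <;> by_cases h3 : (t : H) ∈ S0 <;> simp [h1, h2, h3] }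
  haveI : S.FiniteIndex := inferInstance
  have hkey : ∀ (k : ℕ) (g₀ : H), g₀⁻¹ * z ^ k * g₀ ∈ S → g₀⁻¹ * z ^ k * g₀ = z ^ k := by
    intro k g₀ _
    have h1 : ∀ k : ℕ, z ^ k * g₀ = g₀ * z ^ k := by
      intro k
      induction k with
      | zero => simp
      | succ k ih => rw [pow_succ, mul_assoc, hz, ← mul_assoc, ih, mul_assoc]
    rw [mul_assoc, h1, inv_mul_cancel_left]
  have h1 := MonoidHom.transfer_eq_pow θ z hkey
  have h2 : MonoidHom.transfer θ z = 1 := by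
    have h3 : z ∈ (MonoidHom.transfer θ).ker := by
      have h4 : commutator H ≤ (MonoidHom.transfer θ).ker := Abelianization.commutator_subset_ker _
      rw [hperf] at h4
      exact h4 (Subgroup.mem_top z)
    exact h3
  have h5 : z ^ S.index = z := by
    obtain ⟨m, hm⟩ := hodd
    rw [hm, pow_succ, pow_mul, sq, hzz, one_pow, one_mul]
  rw [h2] at h1
  have h6 : θ ⟨z ^ S.index, MonoidHom.transfer_eq_pow_aux z hkey⟩ = -1 := by
    show (if z ^ S.index ∈ S0 then (1 : ℤˣ) else -1) = -1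
    rw [h5, if_neg hz0]
  rw [h6] at h1
  exact absurd h1 (by decide)

end transfer

variable {F : Type*} [Field F] [Fintype F]
variable {H : Type*} [Group H] [Finite H] {z : H} {φ : H →* PSU 6 F 2}
variable (hF : Fintype.card F = 2 ^ 2) (D : Dbl φ z) {w v : Fin 3 → Fin 6 → F} (h : HB w v)

include hF D in
theorem not_perfect_of_good (h : HB w v) {K : H → Prop} (hK1 : ∀ x y, K x → K (y * x * y⁻¹))
    (hK2 : ∀ x, φ x * φ x = 1 → (K x ∨ K (x * z)) ∧ ¬ (K x ∧ K (x * z)))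
    (hKone : K 1) (hK3 : ∀ (w v : Fin 3 → Fin 6 → F), HB w v → ∀ x ∈ AW φ w, ∀ y ∈ AW φ w, K x → K y → K (x * y)) :
    commutator H ≠ ⊤ := by
  have hsqQ : ∀ {w v : Fin 3 → Fin 6 → F}, HB w v → ∀ {q : SU 6 F 2}, q ∈ QW w → pr q * pr q = (1 : PSU 6 F 2) := by
    intro w v h q hq
    show pr (q * q) = 1
    rw [QW_sq hF h hq]
    rfl
  -- uniqueness of good lifts
  have huniq : ∀ x y, φ x * φ x = 1 → φ x = φ y → K x → K y → x = y := by
    intro x y hxx hxy hx hy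
    obtain ⟨c, hc, hyc⟩ := D.exists_c hxy.symm
    rcases D.ker c hc with rfl | rfl
    · rw [mul_one] at hyc; exact hyc.symm
    · exfalso
      rw [hyc] at hy
      exact (hK2 x hxx).2 ⟨hx, hy⟩
  have hlift : ∀ e : PSU 6 F 2, e * e = 1 → ∃ x, φ x = e ∧ K x := by
    intro e he
    obtain ⟨x, hx⟩ := D.surj e
    rcases (hK2 x (by rw [hx, he])).1 with h1 | h1
    · exact ⟨x, hx, h1⟩
    · exact ⟨x * z, by rw [map_mul, D.phz, mul_one, hx], h1⟩
  have h1' := HB_swap1 hF h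
  have h2' := HB_swap2 hF h
  -- inverses
  have hKinv : ∀ x, φ x * φ x = 1 → K x → K x⁻¹ := by
    intro x hxx hx
    obtain ⟨w0, v0, hwv0, hx0⟩ := exists_AW_of_sq hF D hxx
    have h3 := (AW_abel hF hwv0 D).2 x hx0
    rw [inv_eq_of_mul_eq_one_left h3]
    exact hx
  -- the three pieces
  let F1 : Subgroup H :=
    { carrier := {x | K x ∧ ∃ g ∈ E1 hF h, pr g = φ x}
      mul_mem' := by
        rintro x y ⟨kx, g, hg, hx⟩ ⟨ky, k, hk, hy⟩
        refine ⟨hK3 _ _ h1' x ⟨g, hg.1, hx⟩ y ⟨k, hk.1, hy⟩ kx ky, g * k, mul_mem hg hk, ?_⟩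
        rw [map_mul, ← hx, ← hy]; rfl
      one_mem' := ⟨hKone, 1, one_mem _, by rw [map_one]; rfl⟩
      inv_mem' := by
        rintro x ⟨kx, g, hg, hx⟩
        refine ⟨hKinv x (by rw [← hx]; exact hsqQ h1' hg.1) kx, g⁻¹, inv_mem hg, ?_⟩
        rw [map_inv, ← hx]; rfl }
  let F2 : Subgroup H :=
    { carrier := {x | K x ∧ ∃ g ∈ E2 hF h, pr g = φ x}
      mul_mem' := by
        rintro x y ⟨kx, g, hg, hx⟩ ⟨ky, k, hk, hy⟩
        refine ⟨hK3 _ _ h2' x ⟨g, hg.1, hx⟩ y ⟨k, hk.1, hy⟩ kx ky, g * k, mul_mem hg hk, ?_⟩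
        rw [map_mul, ← hx, ← hy]; rfl
      one_mem' := ⟨hKone, 1, one_mem _, by rw [map_one]; rfl⟩
      inv_mem' := by
        rintro x ⟨kx, g, hg, hx⟩
        refine ⟨hKinv x (by rw [← hx]; exact hsqQ h2' hg.1) kx, g⁻¹, inv_mem hg, ?_⟩
        rw [map_inv, ← hx]; rfl }
  let A0 : Subgroup H :=
    { carrier := {x | K x ∧ ∃ g ∈ QW w, pr g = φ x}
      mul_mem' := by
        rintro x y ⟨kx, g, hg, hx⟩ ⟨ky, k, hk, hy⟩
        refine ⟨hK3 _ _ h x ⟨g, hg, hx⟩ y ⟨k, hk, hy⟩ kx ky, g * k, mul_mem hg hk, ?_⟩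
        rw [map_mul, ← hx, ← hy]; rfl
      one_mem' := ⟨hKone, 1, one_mem _, by rw [map_one]; rfl⟩
      inv_mem' := by
        rintro x ⟨kx, g, hg, hx⟩
        refine ⟨hKinv x (by rw [← hx]; exact hsqQ h hg) kx, g⁻¹, inv_mem hg, ?_⟩
        rw [map_inv, ← hx]; rfl }
  have hF1 : ∀ x, x ∈ F1 ↔ K x ∧ ∃ g ∈ E1 hF h, pr g = φ x := fun _ => Iff.rfl
  have hF2 : ∀ x, x ∈ F2 ↔ K x ∧ ∃ g ∈ E2 hF h, pr g = φ x := fun _ => Iff.rfl
  have hA0 : ∀ x, x ∈ A0 ↔ K x ∧ ∃ g ∈ QW w, pr g = φ x := fun _ => Iff.rfl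
  -- conjugation
  have c1 : ∀ x ∈ F1, ∀ y ∈ F2, y * x * y⁻¹ ∈ F1 := by
    rintro x ⟨kx, g, hg, hx⟩ y ⟨ky, k, hk, hy⟩
    refine ⟨hK1 _ _ kx, k * g * k⁻¹, conj_E1 hF h hg hk, ?_⟩
    rw [map_mul, map_mul, map_inv, ← hx, ← hy]; rfl
  have c2 : ∀ y : H, (∃ g ∈ TT w, pr g = φ y) → ∀ a ∈ A0, y * a * y⁻¹ ∈ A0 := by
    rintro y ⟨k, hk, hy⟩ a ⟨ka, g, hg, ha⟩
    refine ⟨hK1 _ _ ka, k * g * k⁻¹, ?_, ?_⟩
    · refine conj_QW' hF h (fun i j => ?_) hg
      have k0 := TT_0 h hk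
      have k1 := TT_1 h hk
      have k2 := TT_2 h hk
      fin_cases i
      · show hermForm 6 F 2 (act k (w 0)) (w j) = 0
        rw [k0, h.uu]
      · show hermForm 6 F 2 (act k (w 1)) (w j) = 0
        rw [k1, hermForm_add_left, hermForm_smul_left, h.uu, h.uu, mul_zero, add_zero]
      · show hermForm 6 F 2 (act k (w 2)) (w j) = 0
        rw [k2, hermForm_add_left, hermForm_add_left, hermForm_smul_left, hermForm_smul_left, h.uu, h.uu, h.uu,
          mul_zero, mul_zero, add_zero, add_zero]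
    · rw [map_mul, map_mul, map_inv, ← ha, ← hy]; rfl
  have t1 : ∀ x ∈ F1, ∃ g ∈ TT w, pr g = φ x := by
    rintro x ⟨-, g, hg, hx⟩
    exact ⟨g, E1_le_TT hF h hg, hx⟩
  have t2 : ∀ x ∈ F2, ∃ g ∈ TT w, pr g = φ x := by
    rintro x ⟨-, g, hg, hx⟩
    exact ⟨g, E2_le_TT hF h hg, hx⟩
  have tinv : ∀ x, (∃ g ∈ TT w, pr g = φ x) → ∃ g ∈ TT w, pr g = φ x⁻¹ := by
    rintro x ⟨g, hg, hx⟩
    exact ⟨g⁻¹, inv_mem hg, by rw [map_inv, ← hx]; rfl⟩
  have tmul : ∀ x y, (∃ g ∈ TT w, pr g = φ x) → (∃ g ∈ TT w, pr g = φ y) → ∃ g ∈ TT w, pr g = φ (x * y) := by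
    rintro x y ⟨g, hg, hx⟩ ⟨k, hk, hy⟩
    exact ⟨g * k, mul_mem hg hk, by rw [map_mul, ← hx, ← hy]; rfl⟩
  let S0 : Subgroup H :=
    { carrier := {s | ∃ x ∈ F1, ∃ y ∈ F2, ∃ a ∈ A0, s = x * y * a}
      mul_mem' := by
        rintro _ _ ⟨x, hx, y, hy, a, ha, rfl⟩ ⟨x', hx', y', hy', a', ha', rfl⟩
        have m1 := c2 _ (tinv _ (tmul _ _ (t1 x' hx') (t2 y' hy'))) a ha
        rw [inv_inv] at m1
        refine ⟨x * (y * x' * y⁻¹), mul_mem hx (c1 x' hx' y hy), y * y', mul_mem hy hy',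
          (x' * y')⁻¹ * a * (x' * y') * a', mul_mem m1 ha', ?_⟩
        group
      one_mem' := ⟨1, one_mem _, 1, one_mem _, 1, one_mem _, by simp⟩
      inv_mem' := by
        rintro _ ⟨x, hx, y, hy, a, ha, rfl⟩
        have m1 := c2 _ (tmul _ _ (t1 x hx) (t2 y hy)) a⁻¹ (inv_mem ha)
        have m2 := c1 x⁻¹ (inv_mem hx) y⁻¹ (inv_mem hy)
        rw [inv_inv] at m2
        refine ⟨y⁻¹ * x⁻¹ * y, m2, y⁻¹, inv_mem hy, x * y * a⁻¹ * (x * y)⁻¹, m1, ?_⟩
        group }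
  have hS0 : ∀ s, s ∈ S0 ↔ ∃ x ∈ F1, ∃ y ∈ F2, ∃ a ∈ A0, s = x * y * a := fun _ => Iff.rfl
  have hzK : ¬ K z := by
    intro h3
    have := huniq 1 z (by rw [map_one, mul_one]) (by rw [map_one, D.phz]) hKone h3
    exact D.ne this.symm
  refine not_perfect_of_split (S := SW φ w) (S0 := S0) D.cen D.sq ?_ ?_ ?_ ?_ ?_
  · exact ⟨1, one_mem _, by rw [D.phz]; rfl⟩
  · rintro s ⟨x, hx, y, hy, a, ha, rfl⟩
    obtain ⟨-, g, hg, hga⟩ := ha
    exact tmul _ _ (tmul _ _ (t1 x hx) (t2 y hy)) ⟨g, QW_le_TT w hg, hga⟩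
  · rintro ⟨x, hx, y, hy, a, ha, hzs⟩
    obtain ⟨kx, g1, hg1, e1⟩ := hx
    obtain ⟨ky, g2, hg2, e2⟩ := hy
    obtain ⟨ka, q, hq, e3⟩ := ha
    have h4 : pr (g1 * g2 * q) = (1 : PSU 6 F 2) := by
      have : φ (x * y * a) = 1 := by rw [← hzs]; exact D.phz
      rw [map_mul, map_mul, ← e1, ← e2, ← e3] at this
      exact this
    have h5 : g1 * g2 * q = 1 :=
      eq_one_of_pr hF h (mul_mem (mul_mem (E1_le_TT hF h hg1) (E2_le_TT hF h hg2)) (QW_le_TT w hq)) h4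
    have h6 : q * (g1 * g2) = 1 := by
      have h7 : g1 * g2 = q⁻¹ := eq_inv_of_mul_eq_one_left h5
      rw [h7, mul_inv_cancel]
    obtain ⟨h7, h8⟩ := fact_unique hF h hq hg1 hg2 h6
    have ha1 : a = 1 := huniq a 1 (by rw [← e3, h7]; exact mul_one _) (by rw [← e3, h7, map_one]; rfl) ka hKone
    have hxy : x = y := by
      refine huniq x y (by rw [← e1]; exact hsqQ h1' hg1.1) ?_ kx ky
      rw [← e1, ← e2]
      have h9 : g1 = g2⁻¹ := eq_inv_of_mul_eq_one_left h8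
      have h10 : g2 * g2 = 1 := QW_sq hF h2' hg2.1
      rw [h9, inv_eq_of_mul_eq_one_left h10]
    rw [ha1, hxy, mul_one, (AW_abel hF h2' D).2 y ⟨g2, hg2.1, e2⟩] at hzs
    exact D.ne hzs
  · rintro s ⟨g, hg, hs⟩
    obtain ⟨g1, hg1, g2, hg2, q, hq, hgq⟩ := TT_fact hF h hg
    obtain ⟨x, hx, kx⟩ := hlift (pr g1) (hsqQ h1' hg1.1)
    obtain ⟨y, hy, ky⟩ := hlift (pr g2) (hsqQ h2' hg2.1)
    obtain ⟨a, ha, ka⟩ := hlift (pr q) (hsqQ h hq)
    have h3 : φ s = φ (x * y * a) := by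
      rw [map_mul, map_mul, hx, hy, ha, ← hs]
      show pr g = pr (g1 * g2 * q)
      rw [hgq]
    have h4 : x * y * a ∈ S0 := ⟨x, ⟨kx, g1, hg1, hx.symm⟩, y, ⟨ky, g2, hg2, hy.symm⟩, a, ⟨ka, q, hq, ha.symm⟩, rfl⟩
    obtain ⟨c, hc, hsc⟩ := D.exists_c h3
    rcases D.ker c hc with rfl | rfl
    · left; rw [hsc, mul_one]; exact h4
    · right; rw [hsc, mul_assoc, D.sq, mul_one]; exact h4
  · have h3 := (SW φ w).card_mul_index
    rw [card_SW hF h D, card_H hF D] at h3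
    have h4 : (SW φ w).index = 25515 * 11 := by
      have e : (2 ^ 16 * 25515 * 11 : ℕ) = 2 ^ 16 * (25515 * 11) := by norm_num
      rw [e] at h3
      exact Nat.eq_of_mul_eq_mul_left (by norm_num) h3
    rw [h4]
    decide

end Cfsg.Agent.UTh
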