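import Cfsg.Agent.UTh.Lin

/-!
# The Sylow 2-subgroup attached to a hyperbolic basis
-/

set_option autoImplicit false
set_option linter.unusedSectionVars false

namespace Cfsg.Agent.UTh

open Finset Matrix Module Cfsg.Agent.Uni Cfsg.Agent.Fi22

variable {F : Type*} [Field F] [Fintype F]

/-- the unitriangular subgroup -/
def TT (w : Fin 3 → Fin 6 → F) : Subgroup (SU 6 F 2) where
  carrier := {g | act g (w 0) = w 0 ∧ (∃ a : F, act g (w 1) = w 1 + a • w 0) ∧
    ∃ b c : F, act g (w 2) = w 2 + b • w 1 + c • w 0}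
  mul_mem' := by
    rintro g k ⟨g0, ⟨a, g1⟩, b, c, g2⟩ ⟨k0, ⟨a', k1⟩, b', c', k2⟩
    refine ⟨by rw [act_mul, k0, g0], ⟨a + a', ?_⟩, b + b', c + c' + b' * a, ?_⟩
    · rw [act_mul, k1, act_add, act_smul, g0, g1]
      module
    · rw [act_mul, k2, act_add, act_add, act_smul, act_smul, g0, g1, g2]
      module
  one_mem' := ⟨act_one _, ⟨0, by rw [act_one, zero_smul, add_zero]⟩, 0, 0, by
    rw [act_one, zero_smul, zero_smul, add_zero, add_zero]⟩
  inv_mem' := by
    rintro g ⟨g0, ⟨a, g1⟩, b, c, g2⟩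
    have e0 : act g⁻¹ (w 0) = w 0 := by
      have := act_inv_act g (w 0)
      rwa [g0] at this
    have e1 : act g⁻¹ (w 1) = w 1 + (-a) • w 0 := by
      have := act_inv_act g (w 1)
      rw [g1, act_add, act_smul, e0] at this
      rw [eq_sub_of_add_eq this]
      module
    refine ⟨e0, ⟨-a, e1⟩, -b, b * a - c, ?_⟩
    have := act_inv_act g (w 2)
    rw [g2, act_add, act_add, act_smul, act_smul, e0, e1] at this
    rw [eq_sub_of_add_eq (eq_sub_of_add_eq this)]
    module

theorem QW_le_TT (w : Fin 3 → Fin 6 → F) : QW w ≤ TT w := fun g hg =>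
  ⟨hg 0, ⟨0, by rw [hg 1, zero_smul, add_zero]⟩, 0, 0, by
    rw [hg 2, zero_smul, zero_smul, add_zero, add_zero]⟩

/-- coordinates on the unitriangular group -/
def al (w v : Fin 3 → Fin 6 → F) (g : SU 6 F 2) : F := hermForm 6 F 2 (act g (w 1)) (v 0)
/-- coordinates on the unitriangular group -/
def be (w v : Fin 3 → Fin 6 → F) (g : SU 6 F 2) : F := hermForm 6 F 2 (act g (w 2)) (v 1)
/-- coordinates on the unitriangular group -/
def ga (w v : Fin 3 → Fin 6 → F) (g : SU 6 F 2) : F := hermForm 6 F 2 (act g (w 2)) (v 0)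

section
variable (hF : Fintype.card F = 2 ^ 2) {w v : Fin 3 → Fin 6 → F} (h : HB w v)

include h in
theorem TT_0 {g : SU 6 F 2} (hg : g ∈ TT w) : act g (w 0) = w 0 := hg.1

include h in
theorem TT_1 {g : SU 6 F 2} (hg : g ∈ TT w) : act g (w 1) = w 1 + al w v g • w 0 := by
  obtain ⟨-, ⟨a, h1⟩, -⟩ := hg
  have : al w v g = a := by
    rw [al, h1, hermForm_add_left, hermForm_smul_left, h.uv, h.uv]
    simp
  rw [this, h1]

include h in
theorem TT_2 {g : SU 6 F 2} (hg : g ∈ TT w) : act g (w 2) = w 2 + be w v g • w 1 + ga w v g • w 0 := by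
  obtain ⟨-, -, b, c, h1⟩ := hg
  have e1 : be w v g = b := by
    rw [be, h1, hermForm_add_left, hermForm_add_left, hermForm_smul_left, hermForm_smul_left, h.uv, h.uv, h.uv]
    simp
  have e2 : ga w v g = c := by
    rw [ga, h1, hermForm_add_left, hermForm_add_left, hermForm_smul_left, hermForm_smul_left, h.uv, h.uv, h.uv]
    simp
  rw [e1, e2, h1]

include h in
theorem TT_mul {g k : SU 6 F 2} (hg : g ∈ TT w) (hk : k ∈ TT w) :
    al w v (g * k) = al w v g + al w v k ∧ be w v (g * k) = be w v g + be w v k ∧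
      ga w v (g * k) = ga w v g + ga w v k + be w v k * al w v g := by
  have g0 := TT_0 h hg
  have g1 := TT_1 h hg
  have g2 := TT_2 h hg
  have k1 := TT_1 h hk
  have k2 := TT_2 h hk
  refine ⟨?_, ?_, ?_⟩
  · rw [al, act_mul, k1, act_add, act_smul, g0, g1]
    simp [hermForm_add_left, hermForm_smul_left, h.uv]
  · rw [be, act_mul, k2, act_add, act_add, act_smul, act_smul, g0, g1, g2]
    simp [hermForm_add_left, hermForm_smul_left, h.uv]
  · rw [ga, act_mul, k2, act_add, act_add, act_smul, act_smul, g0, g1, g2]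
    simp [hermForm_add_left, hermForm_smul_left, h.uv]
    ring

include h in
theorem mem_QW_of_coord {g : SU 6 F 2} (hg : g ∈ TT w) (h1 : al w v g = 0) (h2 : be w v g = 0)
    (h3 : ga w v g = 0) : g ∈ QW w := by
  intro i
  fin_cases i
  · exact hg.1
  · show act g (w 1) = w 1
    rw [TT_1 h hg, h1, zero_smul, add_zero]
  · show act g (w 2) = w 2
    rw [TT_2 h hg, h2, h3, zero_smul, zero_smul, add_zero, add_zero]

include h in
theorem QW_coord {g : SU 6 F 2} (hg : g ∈ QW w) : al w v g = 0 ∧ be w v g = 0 ∧ ga w v g = 0 := by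
  refine ⟨?_, ?_, ?_⟩
  · rw [al, hg 1, h.uv]; simp
  · rw [be, hg 2, h.uv]; simp
  · rw [ga, hg 2, h.uv]; simp

include h in
theorem mem_QW_iff_coord {g : SU 6 F 2} (hg : g ∈ TT w) : g ∈ QW w ↔ al w v g = 0 ∧ be w v g = 0 ∧ ga w v g = 0 :=
  ⟨fun hq => QW_coord h hq, fun h1 => mem_QW_of_coord h hg h1.1 h1.2.1 h1.2.2⟩

include h in
/-- elements with the same coordinates differ by an element of `QW` -/
theorem inv_mul_mem_QW {g k : SU 6 F 2} (hg : g ∈ TT w) (hk : k ∈ TT w) (h1 : al w v g = al w v k)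
    (h2 : be w v g = be w v k) (h3 : ga w v g = ga w v k) : g⁻¹ * k ∈ QW w := by
  intro i
  have key : act k (w i) = act g (w i) := by
    fin_cases i
    · exact hk.1.trans hg.1.symm
    · show act k (w 1) = act g (w 1)
      rw [TT_1 h hg, TT_1 h hk, h1]
    · show act k (w 2) = act g (w 2)
      rw [TT_2 h hg, TT_2 h hk, h2, h3]
  rw [act_mul, key, act_inv_act]

/-! ### The Levi part -/

include hF in
theorem HB_swap1 (h : HB w v) : HB ![w 0, v 1, v 2] ![v 0, w 1, w 2] := by
  have h1 := h.vu hF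
  refine ⟨fun i j => ?_, fun i j => ?_, fun i j => ?_⟩ <;> fin_cases i <;> fin_cases j <;>
    simp [h.uu, h.vv, h.uv, h1]

include hF in
theorem HB_swap2 (h : HB w v) : HB ![w 0, w 1, v 2] ![v 0, v 1, w 2] := by
  have h1 := h.vu hF
  refine ⟨fun i j => ?_, fun i j => ?_, fun i j => ?_⟩ <;> fin_cases i <;> fin_cases j <;>
    simp [h.uu, h.vv, h.uv, h1]

theorem HB_symm (hF : Fintype.card F = 2 ^ 2) (h : HB w v) : HB v w := ⟨h.vv, h.uu, h.vu hF⟩

/-- the stabiliser of both planes -/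
noncomputable def LW (hF : Fintype.card F = 2 ^ 2) (h : HB w v) : Subgroup (SU 6 F 2) where
  carrier := {g | (∀ i j, hermForm 6 F 2 (act g (w i)) (w j) = 0) ∧ (∀ i j, hermForm 6 F 2 (act g (v i)) (v j) = 0)}
  mul_mem' := by
    rintro g k ⟨g1, g2⟩ ⟨k1, k2⟩
    refine ⟨fun i j => ?_, fun i j => ?_⟩
    · rw [act_mul, HB_expand_w hF h (k1 i)]
      simp only [act_add, act_smul, hermForm_add_left, hermForm_smul_left, g1, mul_zero, add_zero]
    · rw [act_mul, HB_expand_w hF (HB_symm hF h) (k2 i)]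
      simp only [act_add, act_smul, hermForm_add_left, hermForm_smul_left, g2, mul_zero, add_zero]
  one_mem' := ⟨fun i j => by rw [act_one, h.uu], fun i j => by rw [act_one, h.vv]⟩
  inv_mem' := by
    rintro g ⟨g1, g2⟩
    refine ⟨fun i j => ?_, fun i j => ?_⟩
    · rw [act_form_left, inv_inv]
      exact (hermForm_eq_zero_comm hF).1 (g1 j i)
    · rw [act_form_left, inv_inv]
      exact (hermForm_eq_zero_comm hF).1 (g2 j i)

/-- the first elementary abelian subgroup of the Levi factor -/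
noncomputable def E1 (hF : Fintype.card F = 2 ^ 2) (h : HB w v) : Subgroup (SU 6 F 2) := QW ![w 0, v 1, v 2] ⊓ LW hF h

/-- the second elementary abelian subgroup of the Levi factor -/
noncomputable def E2 (hF : Fintype.card F = 2 ^ 2) (h : HB w v) : Subgroup (SU 6 F 2) := QW ![w 0, w 1, v 2] ⊓ LW hF h

theorem LW_eq_one {g : SU 6 F 2} (hg : g ∈ LW hF h) (hgw : ∀ i, act g (w i) = w i) : g = 1 := by
  refine HB_act_ext hF h (fun i => by rw [hgw, act_one]) (fun i => ?_)
  rw [act_one]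
  have h1 := HB_expand_w hF (HB_symm hF h) (hg.2 i)
  have h2 : ∀ j, hermForm 6 F 2 (act g (v i)) (w j) = if i = j then 1 else 0 := by
    intro j
    nth_rewrite 1 [← hgw j]
    rw [act_form, h.vu hF]
  rw [h1, h2, h2, h2]
  fin_cases i <;> simp

/-- unique factorisation -/
theorem fact_unique {q x y : SU 6 F 2} (hq : q ∈ QW w) (hx : x ∈ E1 hF h) (hy : y ∈ E2 hF h) (hqxy : q * (x * y) = 1) :
    q = 1 ∧ x * y = 1 := by
  have h1 : x * y = 1 := by
    apply LW_eq_one hF h (mul_mem hx.2 hy.2)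
    intro i
    have h2 : x * y = q⁻¹ := eq_inv_of_mul_eq_one_right hqxy
    rw [h2]
    exact inv_mem hq i
  exact ⟨by rwa [h1, mul_one] at hqxy, h1⟩

theorem conj_E1 {x y : SU 6 F 2} (hx : x ∈ E1 hF h) (hy : y ∈ E2 hF h) : y * x * y⁻¹ ∈ E1 hF h := by
  refine ⟨fun i => ?_, (LW hF h).mul_mem ((LW hF h).mul_mem hy.2 hx.2) ((LW hF h).inv_mem hy.2)⟩
  have hyi := (E2 hF h).inv_mem hy
  have hw0 : act x (w 0) = w 0 := hx.1 0
  have hv1 : act x (v 1) = v 1 := hx.1 1
  have hv2 : act x (v 2) = v 2 := hx.1 2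
  have h0 : act y⁻¹ (w 0) = w 0 := hyi.1 0
  have h1 : act y⁻¹ (v 2) = v 2 := hyi.1 2
  rw [act_mul, act_mul]
  fin_cases i
  · show act y (act x (act y⁻¹ (w 0))) = w 0
    rw [h0, hw0]
    exact hy.1 0
  · show act y (act x (act y⁻¹ (v 1))) = v 1
    have h3 : act x (act y⁻¹ (v 1)) = act y⁻¹ (v 1) := by
      have h4 := HB_expand_w hF (HB_symm hF h) (hyi.2.2 1)
      have h5 : hermForm 6 F 2 (act y⁻¹ (v 1)) (w 0) = 0 := by
        rw [act_form_left, inv_inv]
        have : act y (w 0) = w 0 := hy.1 0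
        rw [this, h.vu hF, if_neg (by decide)]
      rw [h4, h5, zero_smul, zero_add, act_add, act_smul, act_smul, hv1, hv2]
    rw [h3]
    have := act_inv_act y⁻¹ (v 1)
    rwa [inv_inv] at this
  · show act y (act x (act y⁻¹ (v 2))) = v 2
    rw [h1, hv2]
    exact hy.1 2

/-! ### Sections -/

theorem ei_mem_E1 (c1 c2 : F) : ei (w 0) (c1 • v 1 + c2 • v 2) ∈ E1 hF h := by
  have hu := h.uu 0 0
  have hy : hermForm 6 F 2 (c1 • v 1 + c2 • v 2) (c1 • v 1 + c2 • v 2) = 0 := by
    simp [hermForm_add_left, hermForm_add_right hF, hermForm_smul_left, hermForm_smul_right, h.vv]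
  have huy : hermForm 6 F 2 (w 0) (c1 • v 1 + c2 • v 2) = 0 := by
    simp [hermForm_add_right hF, hermForm_smul_right, h.uv]
  have ha := ei_act hF hu hy huy
  have hvu := h.vu hF
  refine ⟨fun i => ?_, fun i j => ?_, fun i j => ?_⟩
  · rw [ha]
    fin_cases i
    · simp [hermForm_add_right hF, hermForm_smul_right, h.uv, h.uu]
    · simp [hermForm_add_right hF, hermForm_smul_right, h.vv, hvu]
    · simp [hermForm_add_right hF, hermForm_smul_right, h.vv, hvu]
  · rw [ha]
    simp [hermForm_add_left, hermForm_add_right hF, hermForm_smul_left, hermForm_smul_right, h.uu]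
  · rw [ha]
    simp [hermForm_add_left, hermForm_add_right hF, hermForm_smul_left, hermForm_smul_right, h.vv]

theorem ei_mem_E2 (b c : F) : ei (v 2) (b • w 1 + c • w 0) ∈ E2 hF h := by
  have hvu := h.vu hF
  have hu := h.vv 2 2
  have hy : hermForm 6 F 2 (b • w 1 + c • w 0) (b • w 1 + c • w 0) = 0 := by
    simp [hermForm_add_left, hermForm_add_right hF, hermForm_smul_left, hermForm_smul_right, h.uu]
  have huy : hermForm 6 F 2 (v 2) (b • w 1 + c • w 0) = 0 := by
    simp [hermForm_add_right hF, hermForm_smul_right, hvu]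
  have ha := ei_act hF hu hy huy
  refine ⟨fun i => ?_, fun i j => ?_, fun i j => ?_⟩
  · rw [ha]
    fin_cases i
    · simp [hermForm_add_right hF, hermForm_smul_right, h.uv, h.uu]
    · simp [hermForm_add_right hF, hermForm_smul_right, h.uv, h.uu]
    · simp [hermForm_add_right hF, hermForm_smul_right, h.vv, hvu]
  · rw [ha]
    simp [hermForm_add_left, hermForm_add_right hF, hermForm_smul_left, hermForm_smul_right, h.uu]
  · rw [ha]
    simp [hermForm_add_left, hermForm_add_right hF, hermForm_smul_left, hermForm_smul_right, h.vv]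

theorem E1_le_TT : E1 hF h ≤ TT w := by
  intro g hg
  have h0 : act g (w 0) = w 0 := hg.1 0
  have h1 : act g (v 1) = v 1 := hg.1 1
  have h2 : act g (v 2) = v 2 := hg.1 2
  have key : ∀ i, act g (w i) = hermForm 6 F 2 (act g (w i)) (v 0) • w 0 + hermForm 6 F 2 (w i) (v 1) • w 1 +
      hermForm 6 F 2 (w i) (v 2) • w 2 := by
    intro i
    have h3 := HB_expand_w hF h (hg.2.1 i)
    have h4 : hermForm 6 F 2 (act g (w i)) (v 1) = hermForm 6 F 2 (w i) (v 1) := by
      nth_rewrite 1 [← h1]; rw [act_form]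
    have h5 : hermForm 6 F 2 (act g (w i)) (v 2) = hermForm 6 F 2 (w i) (v 2) := by
      nth_rewrite 1 [← h2]; rw [act_form]
    rwa [h4, h5] at h3
  refine ⟨h0, ⟨hermForm 6 F 2 (act g (w 1)) (v 0), ?_⟩, 0, hermForm 6 F 2 (act g (w 2)) (v 0), ?_⟩
  · nth_rewrite 1 [key 1]
    rw [h.uv, h.uv, if_pos rfl, if_neg (by decide), one_smul, zero_smul, add_zero, add_comm]
  · nth_rewrite 1 [key 2]
    rw [h.uv, h.uv, if_neg (by decide), if_pos rfl, one_smul, zero_smul, add_zero, add_zero, add_comm]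

theorem E2_le_TT : E2 hF h ≤ TT w := by
  intro g hg
  have h0 : act g (w 0) = w 0 := hg.1 0
  have h1 : act g (w 1) = w 1 := hg.1 1
  have h2 : act g (v 2) = v 2 := hg.1 2
  refine ⟨h0, ⟨0, by rw [h1, zero_smul, add_zero]⟩, hermForm 6 F 2 (act g (w 2)) (v 1),
    hermForm 6 F 2 (act g (w 2)) (v 0), ?_⟩
  have h3 := HB_expand_w hF h (hg.2.1 2)
  have h5 : hermForm 6 F 2 (act g (w 2)) (v 2) = 1 := by
    nth_rewrite 1 [← h2]; rw [act_form, h.uv, if_pos rfl]
  rw [h5, one_smul] at h3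
  nth_rewrite 1 [h3]
  abel

/-- the section -/
noncomputable def sec1 (w v : Fin 3 → Fin 6 → F) (a b c : F) : SU 6 F 2 :=
  ei (w 0) (a ^ 2 • v 1 + (c + b * a) ^ 2 • v 2)

/-- the section -/
noncomputable def sec2 (w v : Fin 3 → Fin 6 → F) (b : F) : SU 6 F 2 := ei (v 2) (b • w 1 + (0 : F) • w 0)

include hF h

theorem sec_coord (a b c : F) : al w v (sec1 w v a b c * sec2 w v b) = a ∧ be w v (sec1 w v a b c * sec2 w v b) = b ∧
    ga w v (sec1 w v a b c * sec2 w v b) = c := by
  have hvu := h.vu hF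
  have m1 := E1_le_TT hF h (ei_mem_E1 hF h (a ^ 2) ((c + b * a) ^ 2))
  have m2 := E2_le_TT hF h (ei_mem_E2 hF h b 0)
  have ha1 := ei_act hF (u := w 0) (y := a ^ 2 • v 1 + (c + b * a) ^ 2 • v 2) (h.uu 0 0) (by
      simp [hermForm_add_left, hermForm_add_right hF, hermForm_smul_left, hermForm_smul_right, h.vv]) (by
      simp [hermForm_add_right hF, hermForm_smul_right, h.uv])
  have ha2 := ei_act hF (u := v 2) (y := b • w 1 + (0 : F) • w 0) (h.vv 2 2) (by
      simp [hermForm_add_left, hermForm_add_right hF, hermForm_smul_left, hermForm_smul_right, h.uu]) (by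
      simp [hermForm_add_right hF, hermForm_smul_right, hvu])
  have e1 : al w v (sec1 w v a b c) = a := by
    rw [al, sec1, ha1]
    simp [hermForm_add_left, hermForm_add_right hF, hermForm_smul_left, hermForm_smul_right, h.uv, h.uu, h.vv, hvu]
    exact pow_four hF a
  have e2 : be w v (sec1 w v a b c) = 0 := by
    rw [be, sec1, ha1]
    simp [hermForm_add_left, hermForm_add_right hF, hermForm_smul_left, hermForm_smul_right, h.uv, h.uu, h.vv, hvu]
  have e3 : ga w v (sec1 w v a b c) = c + b * a := by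
    rw [ga, sec1, ha1]
    simp [hermForm_add_left, hermForm_add_right hF, hermForm_smul_left, hermForm_smul_right, h.uv, h.uu, h.vv, hvu]
    exact pow_four hF _
  have f1 : al w v (sec2 w v b) = 0 := by
    rw [al, sec2, ha2]
    simp [hermForm_add_left, hermForm_add_right hF, hermForm_smul_left, hermForm_smul_right, h.uv, h.uu, h.vv, hvu]
  have f2 : be w v (sec2 w v b) = b := by
    rw [be, sec2, ha2]
    simp [hermForm_add_left, hermForm_add_right hF, hermForm_smul_left, hermForm_smul_right, h.uv, h.uu, h.vv, hvu]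
  have f3 : ga w v (sec2 w v b) = 0 := by
    rw [ga, sec2, ha2]
    simp [hermForm_add_left, hermForm_add_right hF, hermForm_smul_left, hermForm_smul_right, h.uv, h.uu, h.vv, hvu]
  obtain ⟨r1, r2, r3⟩ := TT_mul h (v := v) m1 m2
  rw [← sec1, ← sec2] at r1 r2 r3
  refine ⟨by rw [r1, e1, f1, add_zero], by rw [r2, e2, f2, zero_add], ?_⟩
  rw [r3, e3, f3, f2, e1]
  have h2 : (2 : F) = 0 := two_eq_zero' hF
  linear_combination (b * a) * h2

theorem sec_mem (a b c : F) : sec1 w v a b c * sec2 w v b ∈ TT w :=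
  mul_mem (E1_le_TT hF h (ei_mem_E1 hF h _ _)) (E2_le_TT hF h (ei_mem_E2 hF h _ _))

/-- factorisation of the elements of `TT` -/
theorem TT_fact {g : SU 6 F 2} (hg : g ∈ TT w) : ∃ x ∈ E1 hF h, ∃ y ∈ E2 hF h, ∃ q ∈ QW w, g = x * y * q := by
  obtain ⟨e1, e2, e3⟩ := sec_coord hF h (al w v g) (be w v g) (ga w v g)
  refine ⟨sec1 w v (al w v g) (be w v g) (ga w v g), ei_mem_E1 hF h _ _, sec2 w v (be w v g),
    ei_mem_E2 hF h _ _, _,
    inv_mul_mem_QW h (sec_mem hF h (al w v g) (be w v g) (ga w v g)) hg e1 e2 e3, ?_⟩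
  rw [mul_inv_cancel_left]

theorem card_TT_eq : Nat.card (TT w) = 64 * Nat.card (QW w) := by
  have e : TT w ≃ (F × F × F) × QW w :=
    { toFun := fun g => ((al w v g.1, be w v g.1, ga w v g.1), ⟨_, inv_mul_mem_QW h
        (sec_mem hF h (al w v g.1) (be w v g.1) (ga w v g.1)) g.2 (sec_coord hF h _ _ _).1
        (sec_coord hF h _ _ _).2.1 (sec_coord hF h _ _ _).2.2⟩)
      invFun := fun p => ⟨sec1 w v p.1.1 p.1.2.1 p.1.2.2 * sec2 w v p.1.2.1 * p.2.1,
        mul_mem (sec_mem hF h _ _ _) (QW_le_TT w p.2.2)⟩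
      left_inv := by
        intro g
        apply Subtype.ext
        exact mul_inv_cancel_left _ _
      right_inv := by
        rintro ⟨⟨a, b, c⟩, q, hq⟩
        obtain ⟨s1, s2, s3⟩ := sec_coord hF h a b c
        obtain ⟨r1, r2, r3⟩ := TT_mul h (v := v) (sec_mem hF h a b c) (QW_le_TT w hq)
        obtain ⟨q1, q2, q3⟩ := QW_coord h hq
        rw [s1, q1, add_zero] at r1
        rw [s2, q2, add_zero] at r2
        rw [s3, q3, q2, zero_mul, add_zero, add_zero] at r3
        simp only [Prod.mk.injEq, Subtype.mk.injEq]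
        refine ⟨⟨r1, r2, r3⟩, ?_⟩
        rw [r1, r2, r3, inv_mul_cancel_left] }
  rw [Nat.card_congr e, Nat.card_prod, Nat.card_prod, Nat.card_prod, Nat.card_eq_fintype_card (α := F), hF]
  norm_num

end

end Cfsg.Agent.UTh
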