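import Cfsg.Agent.UTh.Cov
import Cfsg.Agent.Fi22.Wid

/-!
# The elements of the pointwise stabiliser by rank: transitivity and counting
-/

set_option autoImplicit false
set_option linter.unusedSectionVars false
set_option linter.unusedSimpArgs false

namespace Cfsg.Agent.UTh

open Finset Matrix Module Cfsg.Agent.Uni Cfsg.Agent.Fi22 Cfsg.Agent.UDbl

variable {F : Type*} [Field F] [Fintype F]

section
variable (hF : Fintype.card F = 2 ^ 2) {w v : Fin 3 → Fin 6 → F} (h : HB w v)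

/-- a family in the plane -/
def InP (w : Fin 3 → Fin 6 → F) {k : ℕ} (u : Fin k → Fin 6 → F) : Prop :=
  IsTI 2 u ∧ ∀ i j, hermForm 6 F 2 (u i) (w j) = 0

include hF h in
theorem ext_step {k : ℕ} (hk : k < 3) {u : Fin k → Fin 6 → F} (hu : InP w u) :
    ∃ u' : Fin (k + 1) → Fin 6 → F, InP w u' ∧ Fin.init u' = u := by
  have h1 : finrank F (Submodule.span F (Set.range w)) = 3 := by
    rw [finrank_span_eq_card h.li, Fintype.card_fin]
  have h2 : finrank F (Submodule.span F (Set.range u)) = k := by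
    rw [finrank_span_eq_card hu.1.1, Fintype.card_fin]
  obtain ⟨x, hx, hxu⟩ : ∃ x ∈ Submodule.span F (Set.range w), x ∉ Submodule.span F (Set.range u) := by
    by_contra hcon
    push Not at hcon
    have h3 : Submodule.span F (Set.range w) ≤ Submodule.span F (Set.range u) := hcon
    have h4 := Submodule.finrank_mono h3
    rw [h1, h2] at h4
    omega
  have hxw : ∀ j, hermForm 6 F 2 x (w j) = 0 := by
    intro j
    have h5 := (show IsTI 2 w from ⟨h.li, h.uu⟩).form_span hF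
    exact h5 x hx (w j) (Submodule.subset_span ⟨j, rfl⟩)
  refine ⟨Fin.snoc u x, ⟨(isTI_succ_iff hF _).2 ⟨?_, ?_, ?_, ?_⟩, ?_⟩, by rw [Fin.init_snoc]⟩
  · rw [Fin.init_snoc]; exact hu.1
  · rw [Fin.init_snoc, Fin.snoc_last, mem_perp_span hF]
    rintro _ ⟨i, rfl⟩
    exact mem_plane hF h hxw (hu.2 i)
  · rw [Fin.snoc_last]
    exact mem_plane hF h hxw hxw
  · rw [Fin.init_snoc, Fin.snoc_last]
    exact hxu
  · intro i j
    induction i using Fin.lastCases with
    | last => rw [Fin.snoc_last]; exact hxw j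
    | cast i => rw [Fin.snoc_castSucc]; exact hu.2 i j

include hF h in
theorem ext3 {k : ℕ} (hk : k ≤ 3) {u : Fin k → Fin 6 → F} (hu : InP w u) :
    ∃ u' : Fin 3 → Fin 6 → F, InP w u' ∧ ∀ i : Fin k, u' (Fin.castLE hk i) = u i := by
  obtain ⟨j, hj⟩ : ∃ j, k + j = 3 := ⟨3 - k, by omega⟩
  induction j generalizing k with
  | zero =>
    obtain rfl : k = 3 := by omega
    exact ⟨u, hu, fun i => rfl⟩
  | succ j ih =>
    obtain ⟨u1, hu1, h1⟩ := ext_step hF h (by omega) hu
    obtain ⟨u2, hu2, h2⟩ := ih (by omega) hu1 (by omega)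
    refine ⟨u2, hu2, fun i => ?_⟩
    have h3 := h2 i.castSucc
    have h4 : u1 i.castSucc = u i := congrFun h1 i
    rw [← h4, ← h3]
    rfl

include hF h in
/-- a basis of the plane is the first half of a hyperbolic basis -/
theorem InP.exists_HB {u : Fin 3 → Fin 6 → F} (hu : InP w u) : ∃ u', HB u u' := by
  obtain ⟨w', v', hwv', hw'⟩ := exists_HB_of_TI hF (k := 3) le_rfl hu.1
  have : w' = u := funext hw'
  exact ⟨v', this ▸ hwv'⟩

include hF in
/-- planes with the same points have the same pointwise stabiliser -/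
theorem QW_eq {w' v' : Fin 3 → Fin 6 → F} (h : HB w v) (h' : HB w' v') (hww : ∀ i j, hermForm 6 F 2 (w' i) (w j) = 0) :
    QW w = QW w' := by
  apply le_antisymm
  · intro g hg i
    exact QW_fix hF h hg (hww i)
  · intro g hg i
    exact QW_fix hF h' hg (fun j => (hermForm_eq_zero_comm hF).1 (hww j i))

include hF h in
/-- the stabiliser of the plane normalises the pointwise stabiliser -/
theorem conj_QW' {s q : SU 6 F 2} (hs : ∀ i j, hermForm 6 F 2 (act s (w i)) (w j) = 0) (hq : q ∈ QW w) :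
    s * q * s⁻¹ ∈ QW w := by
  rw [QW_eq hF h (HB_map h s) hs]
  exact conj_QW hq

/-! ### Transitivity -/

include hF h in
theorem trans3 {u u' : Fin 3 → Fin 6 → F} (hu : InP w u) (hu' : InP w u') :
    ∃ s : SU 6 F 2, (∀ i, ∃ c : F, c ≠ 0 ∧ act s (u i) = c • u' i) ∧
      ∀ i j, hermForm 6 F 2 (act s (w i)) (w j) = 0 := by
  obtain ⟨k, hk⟩ := exists_GU_of_family hF hu.1.1 hu'.1.1 (fun i j => by rw [hu.1.2, hu'.1.2])
  have hk' : ∀ i, gact k (u i) = u' i := hk
  obtain ⟨v', hv'⟩ := InP.exists_HB hF h hu'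
  obtain ⟨v0, hv0⟩ := InP.exists_HB hF h hu
  have hyp : Hyp 2 (u' 2) (v' 2) := ⟨hv'.uu 2 2, hv'.vv 2 2, by rw [hv'.uv, if_pos rfl]⟩
  set δ : F := ((detHom hF 6 k : Fˣ) : F) with hδ
  have hδ0 : δ ≠ 0 := Units.ne_zero _
  obtain ⟨r, hr, hrd⟩ := exists_gtorus hF hyp hδ0
  obtain ⟨s, hs⟩ := UTP.exists_SU_of_GU hF (r * k) (by
    rw [map_mul]
    change ((detHom hF 6 r : Fˣ) : F) * ((detHom hF 6 k : Fˣ) : F) = 1
    rw [hrd, ← hδ]
    have h3 := pow_three_eq_one hF hδ0
    field_simp)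
  have hsu : ∀ i, ∃ c : F, c ≠ 0 ∧ act s (u i) = c • u' i := by
    intro i
    rw [hs, gact_mul, hk', hr, hv'.uu, mul_zero, zero_smul, add_zero, hv'.uv]
    by_cases hi : i = 2
    · subst hi
      refine ⟨δ, hδ0, ?_⟩
      rw [if_pos rfl, mul_one]
      module
    · refine ⟨1, one_ne_zero, ?_⟩
      rw [if_neg hi, mul_zero, zero_smul, add_zero, one_smul]
  refine ⟨s, hsu, fun i j => ?_⟩
  have h1 := HB_expand_w hF hv0 (x := w i) (fun l => (hermForm_eq_zero_comm hF).1 (hu.2 l i))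
  obtain ⟨c0, -, e0⟩ := hsu 0
  obtain ⟨c1, -, e1⟩ := hsu 1
  obtain ⟨c2, -, e2⟩ := hsu 2
  rw [h1, act_add, act_add, act_smul, act_smul, act_smul, e0, e1, e2]
  simp only [hermForm_add_left, hermForm_smul_left, hu'.2, mul_zero, add_zero]

/-- elements of rank `k` -/
def RR (k : ℕ) (g : SU 6 F 2) : Prop := ∃ u : Fin k → Fin 6 → F, IsTI 2 u ∧ IsTvs g u

theorem isTvs_conj {s g : SU 6 F 2} {k : ℕ} {u : Fin k → Fin 6 → F} (hg : IsTvs g u) :
    IsTvs (s * g * s⁻¹) (fun i => act s (u i)) := by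
  intro x
  rw [act_mul, act_mul, hg, act_add, ← act_mul, mul_inv_cancel, act_one]
  congr 1
  have : ∀ (t : Finset (Fin k)) (f : Fin k → Fin 6 → F), act s (∑ i ∈ t, f i) = ∑ i ∈ t, act s (f i) := by
    intro t f
    classical
    induction t using Finset.induction_on with
    | empty => rw [Finset.sum_empty, Finset.sum_empty, act_zero]
    | insert a t ha ih => rw [Finset.sum_insert ha, Finset.sum_insert ha, act_add, ih]
  rw [this]
  refine Finset.sum_congr rfl fun i _ => ?_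
  rw [act_smul]
  congr 1
  rw [act_form_left, inv_inv]

include hF in
theorem isTvs_smul {g : SU 6 F 2} {k : ℕ} {u u' : Fin k → Fin 6 → F} (hg : IsTvs g u)
    (hu : ∀ i, ∃ c : F, c ≠ 0 ∧ u i = c • u' i) : IsTvs g u' := by
  intro x
  rw [hg x]
  congr 1
  refine Finset.sum_congr rfl fun i _ => ?_
  obtain ⟨c, hc, hi⟩ := hu i
  rw [hi, hermForm_smul_right, smul_smul]
  congr 1
  have := pow_three_eq_one hF hc
  linear_combination hermForm 6 F 2 x (u' i) * this

theorem isTvs_unique {g g' : SU 6 F 2} {k : ℕ} {u : Fin k → Fin 6 → F} (hg : IsTvs g u) (hg' : IsTvs g' u) : g = g' :=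
  act_ext fun x => by rw [hg x, hg' x]

include hF h in
theorem RR_inP {q : SU 6 F 2} (hq : q ∈ QW w) {k : ℕ} {u : Fin k → Fin 6 → F} (hu : IsTI 2 u) (hgu : IsTvs q u) :
    InP w u := by
  refine ⟨hu, fun j i => ?_⟩
  have h1 := hgu (w i)
  rw [hq i] at h1
  have h2 : ∑ j, hermForm 6 F 2 (w i) (u j) • u j = 0 := left_eq_add.1 h1
  exact (hermForm_eq_zero_comm hF).1 (Fintype.linearIndependent_iff.1 hu.1 _ h2 j)

include hF h in
/-- the stabiliser of the plane is transitive on the elements of a given rank -/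
theorem trans_RR {k : ℕ} {q q' : SU 6 F 2} (hq : q ∈ QW w) (hq' : q' ∈ QW w) (hr : RR k q) (hr' : RR k q') :
    ∃ s : SU 6 F 2, (∀ i j, hermForm 6 F 2 (act s (w i)) (w j) = 0) ∧ s * q * s⁻¹ = q' := by
  obtain ⟨u, hu, hqu⟩ := hr
  obtain ⟨u', hu', hqu'⟩ := hr'
  have hk : k ≤ 3 := by
    have := Fi22.IsTI.two_mul_le hF hu
    omega
  obtain ⟨u3, h3, h3u⟩ := ext3 hF h hk (RR_inP hF h hq hu hqu)
  obtain ⟨u3', h3', h3u'⟩ := ext3 hF h hk (RR_inP hF h hq' hu' hqu')
  obtain ⟨s, hs, hsw⟩ := trans3 hF h h3 h3'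
  refine ⟨s, hsw, ?_⟩
  refine isTvs_unique (isTvs_smul hF (isTvs_conj (s := s) hqu) fun i => ?_) hqu'
  obtain ⟨c, hc, hi⟩ := hs (Fin.castLE hk i)
  exact ⟨c, hc, by rw [← h3u, ← h3u', hi]⟩

/-! ### Ranks are unique -/

include hF in
theorem rank_le {g : SU 6 F 2} {k k' : ℕ} {u : Fin k → Fin 6 → F} {u' : Fin k' → Fin 6 → F} (hu : IsTI 2 u)
    (hg : IsTvs g u) (hu' : IsTI 2 u') (hg' : IsTvs g u') : k ≤ k' := by
  have hk : k ≤ 3 := by
    have := Fi22.IsTI.two_mul_le hF hu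
    omega
  obtain ⟨w', v', hwv, hw'⟩ := exists_HB_of_TI hF hk hu
  have key : ∀ i, u i ∈ Submodule.span F (Set.range u') := by
    intro i
    have h1 := hg (v' (Fin.castLE hk i))
    rw [hg' (v' (Fin.castLE hk i))] at h1
    have h2 := add_left_cancel h1
    rw [Finset.sum_eq_single (s := (Finset.univ : Finset (Fin k))) i] at h2
    · rw [← hw', hwv.vu hF, if_pos rfl, one_smul] at h2
      rw [← hw', ← h2]
      exact Submodule.sum_mem _ fun j _ => Submodule.smul_mem _ _ (Submodule.subset_span ⟨j, rfl⟩)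
    · intro j _ hj
      rw [← hw', hwv.vu hF, if_neg, zero_smul]
      intro h3
      exact hj (Fin.castLE_injective hk h3).symm
    · intro h3; exact absurd (mem_univ i) h3
  have h4 : Submodule.span F (Set.range u) ≤ Submodule.span F (Set.range u') := by
    rw [Submodule.span_le]
    rintro _ ⟨i, rfl⟩
    exact key i
  have h5 := Submodule.finrank_mono h4
  rwa [finrank_span_eq_card hu.1, finrank_span_eq_card hu'.1, Fintype.card_fin, Fintype.card_fin] at h5

include hF in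
theorem RR_unique {g : SU 6 F 2} {k k' : ℕ} (h1 : RR k g) (h2 : RR k' g) : k = k' := by
  obtain ⟨u, hu, hg⟩ := h1
  obtain ⟨u', hu', hg'⟩ := h2
  exact le_antisymm (rank_le hF hu hg hu' hg') (rank_le hF hu' hg' hu hg)

include hF h in
theorem exists_RR {g : SU 6 F 2} (hg : g ∈ QW w) : ∃ k, k ≤ 3 ∧ RR k g := by
  obtain ⟨k, u, hu, hgu⟩ := exists_isTvs hF (QW_sq hF h hg)
  have hk := Fi22.IsTI.two_mul_le hF hu
  exact ⟨k, by omega, u, hu, hgu⟩

theorem RR_zero {g : SU 6 F 2} : RR 0 g ↔ g = 1 := by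
  constructor
  · rintro ⟨u, hu, hg⟩
    apply act_ext
    intro x
    rw [hg x, act_one]
    simp
  · rintro rfl
    exact ⟨fun i => i.elim0, ⟨linearIndependent_empty_type, fun i => i.elim0⟩, fun x => by rw [act_one]; simp⟩

end

end Cfsg.Agent.UTh
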